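import Mathlib
import Cfsg.Agent.H3.Jord2
import Cfsg.Agent.H3.Sib3
import Cfsg.Agent.H3.Down

/-! The Brauer–Leonard theorem: characters of small degree when `C(x) = C(P)` on `P#`. -/

open Cfsg H7
open scoped ComplexConjugate commutatorElement

set_option maxSynthPendingDepth 3
set_option linter.unusedSectionVars false

namespace H3
open H3

noncomputable section

section General
variable {G : Type*} [Group G] [Fintype G] {φ ψ χ α : G → ℂ}

theorem _root_.Cfsg.IsCharacter.inner_ne_of_ip (h : Ch G φ) (h' : Irr G ψ) (e : ip φ ψ ≠ 0) :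
    ⟪φ, ψ⟫ ≠ 0 := fun e' => e (ip_of_inner_zero e')

theorem _root_.Cfsg.IsCharacter.ip_ne_of_inner (h : Ch G φ) (h' : Irr G ψ) (e : ⟪φ, ψ⟫ ≠ 0) :
    ip φ ψ ≠ 0 := fun e' => e ((h.isGen.inner_eq_zero_iff h'.isGen).2 e')

theorem _root_.Cfsg.IsCharacter.one_le_ip (h : Ch G φ) (h' : Ch G ψ) (e : ip φ ψ ≠ 0) :
    1 ≤ ip φ ψ := by
  obtain ⟨n, hn⟩ := h.ip_nat h'
  rw [hn] at e ⊢
  exact_mod_cast Nat.pos_of_ne_zero (by exact_mod_cast e)

theorem dg_add (h : Ch G φ) (h' : Ch G ψ) : dg (φ + ψ) = dg φ + dg ψ :=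
  dg_eq (by rw [Pi.add_apply, h.deg, h'.deg]; simp)

theorem _root_.Cfsg.IsCharacter.sum_dg_le (h : Ch G φ) {ι : Type*} (s : Finset ι)
    (θ : ι → G → ℂ) (hi : ∀ i ∈ s, Irr G (θ i)) (inj : Set.InjOn θ s)
    (h0 : ∀ i ∈ s, ip φ (θ i) ≠ 0) : ∑ i ∈ s, dg (θ i) ≤ dg φ := by
  classical
  induction s using Finset.induction_on generalizing φ with
  | empty => simp
  | insert a s ha ih =>
    have ia := hi a (Finset.mem_insert_self _ _)
    have h1 := h.sub_of_inner_ne_zero ia (h.inner_ne_of_ip ia (h0 a (Finset.mem_insert_self _ _)))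
    have h2 := ih h1 (fun i m => hi i (Finset.mem_insert_of_mem m))
      (inj.mono (by simp)) fun i m => by
        rw [ip_sub_left, ia.ip_of_ne (hi i (Finset.mem_insert_of_mem m)) fun e =>
          ha (inj (by simp) (by simp [m]) e ▸ m), sub_zero]
        exact h0 i (Finset.mem_insert_of_mem m)
    have h3 := dg_add h1 ia.isCharacter
    rw [sub_add_cancel] at h3
    rw [Finset.sum_insert ha]
    omega

theorem _root_.Cfsg.IsCharacter.card_mul_le (h : Ch G φ) {ι : Type*} (s : Finset ι)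
    (θ : ι → G → ℂ) (hi : ∀ i ∈ s, Irr G (θ i)) (inj : Set.InjOn θ s)
    (h0 : ∀ i ∈ s, ip φ (θ i) ≠ 0) {k : ℕ} (hk : ∀ i ∈ s, k ≤ dg (θ i)) : s.card * k ≤ dg φ :=
  (by simpa using Finset.card_nsmul_le_sum s _ k hk : _ ≤ _).trans (h.sum_dg_le s θ hi inj h0)

theorem _root_.Cfsg.IsCharacter.ip_eq_zero_of_const (h : Ch G φ)
    (H : ∀ ψ, Irr G ψ → ip φ ψ ≠ 0 → ip ψ α = 0) : ip φ α = 0 := by
  obtain ⟨m, h1, h2⟩ := h.exists_coeff
  rw [h2, ip_sum_left]
  refine Finset.sum_eq_zero fun ψ _ => ?_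
  rw [ip_natCast_smul_left]
  rcases eq_or_ne (m ψ) 0 with e | e
  · simp [e]
  · rw [H _ ψ.2 (by rw [ip_of_inner_nat (h1 ψ)]; exact_mod_cast e), mul_zero]

theorem ip_mul_conj (h : Ch G χ) : ip (χ * conjFun χ) (fun _ => 1) = ip χ χ := by
  rw [ip_def, ip_def, inner_mul_left]; simp

end General

variable {G : Type*} [Group G] [Fintype G] {L : Subgroup G} [Fintype L] {K P V : Subgroup L}
  [Fintype K]

structure BL (K P V : Subgroup L) : Prop where
  PK : P ≤ K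
  VK : V ≤ K
  sup : ∀ k ∈ K, ∃ y ∈ P, ∃ v ∈ V, y * v = k
  cenP : P ≤ cen K
  der : ⁅K, K⁆ ≤ V
  fpf : ∀ x ∉ K, ∀ z ∈ P, x * z = z * x → z = 1
  ti : ∀ x : G, ∀ a ∈ {a : L | a ∈ K ∧ a ∉ V}, ∀ b ∈ {a : L | a ∈ K ∧ a ∉ V},
    x * L.subtype a * x⁻¹ = L.subtype b → x ∈ L.subtype.range

open Classical in
/-- the twists not containing `P` in the kernel -/
def twS (P V : Subgroup L) (ζ : K → ℂ) : Finset (triv (V.subgroupOf K)) :=
  Finset.univ.filter fun μ => ¬ InKer (P.subgroupOf K) (lf μ.1 * ζ)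

open Classical in
def fam (P V : Subgroup L) (ζ : K → ℂ) : Finset (L → ℂ) :=
  (twS P V ζ).image fun μ => indFun K (lf μ.1 * ζ)

variable [K.Normal] [P.Normal] [V.Normal] {ζ : K → ℂ} {φ χ : G → ℂ} {ψ ψ' : L → ℂ}

theorem mem_fam : ψ ∈ fam P V ζ ↔ ∃ μ ∈ triv (V.subgroupOf K),
    ¬ InKer (P.subgroupOf K) (lf μ * ζ) ∧ indFun K (lf μ * ζ) = ψ := by
  simp [fam, twS, and_left_comm]

theorem self_mem_fam (h : ¬ InKer (P.subgroupOf K) ζ) : indFun K ζ ∈ fam P V ζ :=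
  mem_fam.2 ⟨1, one_mem _, by rwa [lf_one, ← Pi.one_def, one_mul], by
    rw [lf_one, ← Pi.one_def, one_mul]⟩

theorem deg_fam (h : ψ ∈ fam P V ζ) : ψ 1 = K.index * ζ 1 := by
  obtain ⟨μ, -, -, rfl⟩ := mem_fam.1 h
  simp [indFun_one]

theorem eq_off_tw {μ ν : K →* ℂˣ} (m : μ ∈ triv (V.subgroupOf K)) (n : ν ∈ triv (V.subgroupOf K))
    {x : L} (hx : x ∉ {a : L | a ∈ K ∧ a ∉ V}) :
    indFun K (lf μ * ζ) x = indFun K (lf ν * ζ) x := by
  rw [← sub_eq_zero, ← Pi.sub_apply, ← indFun_sub]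
  refine indFun_eq_zero_of_support _ _ fun g hg => ?_
  have h1 : x ∈ K := by simpa [mul_assoc] using (inferInstance : K.Normal).conj_mem _ hg g⁻¹
  have h2 : g * x * g⁻¹ ∈ V := (inferInstance : V.Normal).conj_mem _ (by
    by_contra e; exact hx ⟨h1, e⟩) g
  simp [m ⟨_, hg⟩ h2, n ⟨_, hg⟩ h2]

theorem eq_off_fam (h : ψ ∈ fam P V ζ) (h' : ψ' ∈ fam P V ζ) {x : L}
    (hx : x ∉ {a : L | a ∈ K ∧ a ∉ V}) : ψ x = ψ' x := by
  obtain ⟨μ, m, -, rfl⟩ := mem_fam.1 h
  obtain ⟨ν, n, -, rfl⟩ := mem_fam.1 h'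
  exact eq_off_tw m n hx

theorem eq_off_one (h : ψ ∈ fam P V (fun _ : K => 1)) {x : L}
    (hx : x ∉ {a : L | a ∈ K ∧ a ∉ V}) : ((indFun K fun _ => 1) - ψ) x = 0 := by
  obtain ⟨μ, m, -, rfl⟩ := mem_fam.1 h
  rw [Pi.sub_apply, ← eq_off_tw (one_mem _) m hx, lf_one, sub_eq_zero]
  congr 1; ext; simp

theorem inKer_fam (hV : V ≤ K) (hζ : Irr K ζ) (h : ψ ∈ fam P V ζ) :
    InKer V ψ ↔ InKer (V.subgroupOf K) ζ := by
  obtain ⟨μ, m, -, rfl⟩ := mem_fam.1 h
  rw [inKer_ind_iff hV (hζ.lf_mul μ)]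
  exact forall₂_congr fun y hy => by simp [m y hy]

theorem exists_under (hψ : Ch L ψ) (hP : P ≤ K) (hn : ¬ InKer P ψ) :
    ∃ ζ, Irr K ζ ∧ ¬ InKer (P.subgroupOf K) ζ ∧ ip ψ (indFun K ζ) ≠ 0 := by
  by_contra hc
  push Not at hc
  refine hn fun y hy => (hψ.res K).eq_deg_of_const (g := ⟨y, hP hy⟩) fun ζ hζ e => ?_
  by_contra h1
  refine (hψ.res K).ip_ne_of_inner hζ e ?_
  rw [← ip_indFun_right _ _ hψ.isClassFunction]
  exact hc ζ hζ fun h2 => h1 (h2 _ hy)

/-- The basic virtual characters. -/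
def blA (K : Subgroup L) (ψ : L → ℂ) : G → ℂ := indFun L ((indFun K fun _ => 1) - ψ)

theorem ip_blA {f : G → ℂ} (hf : IsClassFunction G f) :
    ip f (blA K ψ) = ip f↾L (indFun K fun _ => 1) - ip f↾L ψ := by
  rw [blA, ip_indFun_right _ _ hf, ip_sub_right]

namespace BL
variable (h : BL K P V)
include h

theorem seq (hζ : Irr K ζ) (m : ψ ∈ fam P V ζ) : ψ ∈ seqInd K P ⊥ := by
  obtain ⟨μ, -, a, rfl⟩ := mem_fam.1 m
  exact (ind_mem_seqInd h.PK bot_le (hζ.lf_mul μ)).2 ⟨a, by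
    rw [Subgroup.bot_subgroupOf]; exact inKer_bot _⟩

theorem irr (hζ : Irr K ζ) (m : ψ ∈ fam P V ζ) : Irr L ψ :=
  irr_of_fpf_center h.PK h.cenP h.fpf (h.seq hζ m)

theorem tw_eq (hζ : Irr K ζ) {μ ν : triv (V.subgroupOf K)}
    (e : ∀ y ∈ P.subgroupOf K, (lf μ.1 * ζ) y = (lf ν.1 * ζ) y) : μ = ν := by
  refine Subtype.ext (MonoidHom.ext fun k => ?_)
  obtain ⟨y, hy, v, hv, e1⟩ := h.sup k k.2
  have h1 : k = ⟨y, h.PK hy⟩ * ⟨v, h.VK hv⟩ := Subtype.ext e1.symm
  have h2 : ζ ⟨y, h.PK hy⟩ ≠ 0 := by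
    have := hζ.isCharacter.mem_charCenter.1 (hζ.center_le_charCenter (x := ⟨y, h.PK hy⟩)
      (Subgroup.mem_center_iff.2 fun g => Subtype.ext (h.cenP hy _ g.2)))
    rw [← norm_ne_zero_iff, this, norm_ne_zero_iff]
    exact hζ.deg_ne_zero
  rw [h1, map_mul, map_mul, μ.2 ⟨v, h.VK hv⟩ hv, ν.2 ⟨v, h.VK hv⟩ hv]
  congr 1
  exact Units.ext (mul_right_cancel₀ h2 (e ⟨y, h.PK hy⟩ hy))

theorem tw_inj (hζ : Irr K ζ) :
    Function.Injective fun μ : triv (V.subgroupOf K) => lf μ.1 * ζ :=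
  fun _ _ e => h.tw_eq hζ fun y _ => congrFun e y

theorem card_twS (hζ : Irr K ζ) : V.relIndex K ≤ (twS P V ζ).card + 1 := by
  classical
  have h1 := Finset.card_filter_add_card_filter_not (s := Finset.univ)
    fun μ : triv (V.subgroupOf K) => InKer (P.subgroupOf K) (lf μ.1 * ζ)
  rw [Finset.card_univ, ← Nat.card_eq_fintype_card, card_triv _ (commutator_le_sub h.der)] at h1
  have h2 : (Finset.univ.filter fun μ : triv (V.subgroupOf K) =>
      InKer (P.subgroupOf K) (lf μ.1 * ζ)).card ≤ 1 := Finset.card_le_one.2 fun μ a ν b =>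
    h.tw_eq hζ fun y hy => by
      rw [(Finset.mem_filter.1 a).2 y hy, (Finset.mem_filter.1 b).2 y hy]; simp
  change _ + (twS P V ζ).card = V.relIndex K at h1
  omega

theorem card_le_image (hζ : Irr K ζ) (s : Finset (triv (V.subgroupOf K))) (hs : s ⊆ twS P V ζ)
    [DecidableEq (L → ℂ)] :
    s.card ≤ K.index * (s.image fun μ => indFun K (lf μ.1 * ζ)).card := by
  classical
  refine Finset.card_le_mul_card_image _ _ fun ψ m => ?_
  have m' : ψ ∈ fam P V ζ := by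
    obtain ⟨μ, a, b⟩ := Finset.mem_image.1 m
    exact mem_fam.2 ⟨μ, μ.2, (Finset.mem_filter.1 (hs a)).2, b⟩
  have i := h.irr hζ m'
  have := (i.isCharacter.res K).card_mul_le (s.filter fun μ => indFun K (lf μ.1 * ζ) = ψ)
    (fun μ => lf μ.1 * ζ) (fun μ _ => hζ.lf_mul _) (h.tw_inj hζ).injOn (fun μ a => by
      rw [← ip_indFun_right _ _ i.isClassFunction, (Finset.mem_filter.1 a).2, i.ip_self]
      exact one_ne_zero) (k := dg ζ) fun μ _ => (dg_congr (by simp)).le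
  rw [dg_eq (χ := ψ↾K) (n := K.index * dg ζ) (by
    simp only [OneMemClass.coe_one]; rw [deg_fam m', hζ.deg]; simp)] at this
  exact Nat.le_of_mul_le_mul_right this hζ.dg_pos

theorem card_fam (hζ : Irr K ζ) : V.relIndex K ≤ K.index * (fam P V ζ).card + 1 := by
  classical
  have h1 := h.card_le_image hζ _ subset_rfl
  have h2 := h.card_twS hζ
  change _ ≤ _ * (fam P V ζ).card at h1
  omega

theorem le_deg (hζ : Irr K ζ) (hφ : Ch L ψ) (H : ∀ ψ' ∈ fam P V ζ, ip ψ ψ' ≠ 0) :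
    V.relIndex K ≤ dg ψ + 1 := by
  classical
  have := (hφ.res K).card_mul_le (twS P V ζ) (fun μ => lf μ.1 * ζ) (fun μ _ => hζ.lf_mul _)
    (h.tw_inj hζ).injOn (fun μ a => by
      rw [← ip_indFun_right _ _ hφ.isClassFunction]
      exact H _ (mem_fam.2 ⟨_, μ.2, (Finset.mem_filter.1 a).2, rfl⟩)) (k := 1)
    fun μ _ => (hζ.lf_mul _).dg_pos
  have h2 := h.card_twS hζ
  rw [dg_congr (χ := ψ↾K) (ψ := ψ) rfl] at this
  omega

theorem exc (hζ : Irr K ζ) : ∃ ε : ℝ, (ε = 1 ∨ ε = -1) ∧ ∃ c : fam P V ζ → G → ℂ,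
    (∀ i, Irr G (c i)) ∧ Function.Injective c ∧ (∀ i j, dg (c i) = dg (c j)) ∧
    ∀ i j : fam P V ζ, ∀ f, IsClassFunction G f →
      ip f↾L i - ip f↾L j = ε * (ip f (c i) - ip f (c j)) := by
  obtain ⟨ε, hε, c, h1, h2, h3⟩ := exists_exceptional L.subtype_injective h.ti
    (fun i : fam P V ζ => (i : L → ℂ)) (fun i => h.irr hζ i.2) Subtype.val_injective
    (fun i j => by rw [deg_fam i.2, deg_fam j.2]) fun i j x hx => eq_off_fam i.2 j.2 hx
  obtain ⟨e, he, rfl⟩ : ∃ e : ℝ, (e = 1 ∨ e = -1) ∧ ε = e := by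
    rcases hε with rfl | rfl
    · exact ⟨1, Or.inl rfl, by simp⟩
    · exact ⟨-1, Or.inr rfl, by simp⟩
  refine ⟨e, he, c, h1, h2, fun i j => dg_congr ?_, fun i j f hf => ?_⟩
  · have := congrFun (h3 i j) 1
    rw [ind_subtype, indFun_one, Pi.sub_apply, deg_fam i.2, deg_fam j.2] at this
    rcases he with rfl | rfl <;> simpa [sub_eq_zero, eq_comm] using this
  · rw [← ip_sub_right, ← ip_indFun_right _ _ hf, ← ind_subtype, h3, ip_real_smul_right,
      ip_sub_right]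

theorem index_le (hψ : Ch L ψ) (hn : ¬ InKer P ψ) : K.index ≤ ip ψ↾K ψ↾K ∧ K.index ≤ dg ψ := by
  classical
  obtain ⟨ζ, hζ, h1, h2⟩ := exists_under hψ h.PK hn
  have i := h.irr hζ (self_mem_fam h1)
  constructor
  · have h3 : inertia ζ = K := ((isIrr_indFun_iff hζ).1 i).antisymm (le_inertia hζ.isClassFunction)
    have hi : ∀ η ∈ conjSet ζ, Irr K η := fun η m => by
      obtain ⟨g, rfl⟩ := mem_conjSet.1 m; exact hζ.conjF g
    refine le_trans ?_ (bessel_one (conjSet ζ) id (fun a m b n e => (hi a m).ip_of_ne (hi b n) e)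
      (fun a m => (hi a m).ip_self) _)
    have := Finset.card_nsmul_le_sum (conjSet ζ) (fun η => ip ψ↾K (id η) ^ 2) 1 fun η m => by
      obtain ⟨g, rfl⟩ := mem_conjSet.1 m
      rw [ip_indFun_right _ _ hψ.isClassFunction] at h2
      refine one_le_pow₀ ((hψ.res K).one_le_ip (hi _ m).isCharacter ?_)
      rwa [ip_def, inner_res_conjF hψ.isClassFunction]
    rwa [card_conjSet, h3, nsmul_eq_mul, mul_one] at this
  · have := hψ.deg_le_of_inner_ne_zero i (hψ.inner_ne_of_ip i h2) (a := K.index * dg ζ)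
      (by rw [indFun_one, hζ.deg]; simp) hψ.deg
    exact le_trans (Nat.le_mul_of_pos_right _ hζ.dg_pos) this

theorem ip_rho (hζ : Irr K ζ) (m : ψ ∈ fam P V ζ) : ip (indFun K fun _ => 1) ψ = 0 :=
  ip_of_inner_zero ((h.irr hζ m).inner_ind_one fun e => (h.seq hζ m).2.1 (e.mono h.PK))

theorem ip_one (hζ : Irr K ζ) (m : ψ ∈ fam P V ζ) : ip (fun _ => 1) ψ = 0 :=
  isIrrCharacter_one.ip_of_ne (h.irr hζ m) fun e => (h.seq hζ m).2.1 (e ▸ fun _ _ => rfl)

theorem isGen_blA (m : ψ ∈ fam P V (fun _ : K => 1)) : Gen G (blA K ψ) :=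
  (isGen_one.ind.sub (h.irr isIrrCharacter_one m).isGen).ind

theorem ip_blA_one (m : ψ ∈ fam P V (fun _ : K => 1)) : ip (fun _ : G => 1) (blA K ψ) = 1 := by
  rw [ip_blA isCharacter_one.isClassFunction, h.ip_one isIrrCharacter_one m,
    ip_indFun_right _ _ isCharacter_one.isClassFunction, isIrrCharacter_one.ip_self, sub_zero]

theorem ip_blA_sub (m : ψ ∈ fam P V (fun _ : K => 1)) :
    ip (blA K ψ - fun _ : G => 1) (blA K ψ - fun _ : G => 1) = K.index := by
  have i := h.irr isIrrCharacter_one m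
  have h1 : ip (blA K ψ : G → ℂ) (blA K ψ) = K.index + 1 := by
    rw [blA, ← ind_subtype, ip_ind_ind_of_TI L.subtype_injective h.ti
      ((isClassFunction_indFun _ _).sub i.isClassFunction) (fun x => eq_off_one m)
      fun x => eq_off_one m, ip_sub_left, ip_sub_right, ip_sub_right, ip_comm ψ,
      h.ip_rho isIrrCharacter_one m, i.ip_self, ip_def, inner_ind_one_of_inKer isCharacter_one.ind
        ((inKer_ind_self isIrrCharacter_one).2 rfl), indFun_one]
    simp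
  rw [ip_sub_left, ip_sub_right, ip_sub_right, h1, ip_comm (blA K ψ), h.ip_blA_one m,
    isIrrCharacter_one.ip_self]
  ring

theorem ip_res_blA (m : ψ ∈ fam P V (fun _ : K => 1)) (hζ : Irr K ζ) {a b : L → ℂ}
    (ha : a ∈ fam P V ζ) (hb : b ∈ fam P V ζ) :
    ip (blA K ψ : G → ℂ)↾L a - ip (blA K ψ : G → ℂ)↾L b = ip ψ b - ip ψ a := by
  rw [← ip_sub_right, ← ip_indFun_right _ _ (h.isGen_blA m).isClassFunction, blA, ← ind_subtype L,
    ← ind_subtype L (a - b), ip_ind_ind_of_TI L.subtype_injective h.ti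
      ((h.irr hζ ha).isClassFunction.sub (h.irr hζ hb).isClassFunction) (fun x => eq_off_one m)
      fun x hx => sub_eq_zero.2 (eq_off_fam ha hb hx), ip_sub_left, ip_sub_right, ip_sub_right,
    h.ip_rho hζ ha, h.ip_rho hζ hb]
  ring

theorem card_fam_ge (hζ : Irr K ζ) (q1 : K.index ^ 2 + 1 < V.relIndex K) (q2 : 5 < V.relIndex K) :
    K.index + 1 ≤ (fam P V ζ).card ∧ 3 ≤ (fam P V ζ).card := by
  have h1 := h.card_fam hζ
  have h2 : K.index < (fam P V ζ).card := by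
    by_contra h3
    nlinarith
  refine ⟨h2, ?_⟩
  by_contra h3
  have h4 : (fam P V ζ).card ≤ 2 := by omega
  nlinarith

end BL

theorem exc_ne_one {ε : ℝ} (hε : ε = 1 ∨ ε = -1) {ι : Type*} [Fintype ι] (hc : 2 ≤ Fintype.card ι)
    {c : ι → G → ℂ} (hi : ∀ i, Irr G (c i)) (inj : Function.Injective c)
    (H : ∀ i j, ε * (ip (fun _ => 1) (c i) - ip (fun _ => 1) (c j)) = 0) (i : ι) :
    ip (fun _ => 1) (c i) = 0 := by
  refine isIrrCharacter_one.ip_of_ne (hi i) fun e => ?_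
  obtain ⟨j, hj⟩ := Fintype.exists_ne_of_one_lt_card hc i
  have := H i j
  rw [e, (hi i).ip_self, (hi i).ip_of_ne (hi j) fun e => hj (inj e).symm] at this
  rcases hε with rfl | rfl <;> simp at this

namespace BL
variable (h : BL K P V)
include h

theorem ip_blA_nonexc (q1 : K.index ^ 2 + 1 < V.relIndex K) (q2 : 5 < V.relIndex K)
    (m : ψ ∈ fam P V (fun _ : K => 1)) (hφ : Irr G φ) (hd : dg φ + 1 < V.relIndex K)
    (hn : ¬ InKer P φ↾L) (H : ∀ a ∈ fam P V (fun _ : K => 1), ip φ↾L a = ip φ↾L ψ) :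
    ip φ (blA K ψ) = 0 := by
  have r := hφ.isCharacter.res L
  have hd' : ∀ ζ : K → ℂ, Irr K ζ → ∃ a ∈ fam P V ζ, ip φ↾L a = 0 := fun ζ hζ => by
    by_contra hc
    push Not at hc
    have := h.le_deg hζ r hc
    rw [dg_congr (χ := φ↾L) (ψ := φ) rfl] at this
    omega
  obtain ⟨ζ, hζ, z1, z2⟩ := exists_under r h.PK hn
  have hV : ¬ InKer (V.subgroupOf K) ζ := fun e => by
    obtain ⟨μ, rfl⟩ := hζ.isCharacter.exists_lf (hζ.deg_eq_one_of_commutator fun a b =>
      e _ (commutator_le_sub h.der (Subgroup.commutator_mem_commutator (Subgroup.mem_top a)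
        (Subgroup.mem_top b))))
    obtain ⟨a, a1, a2⟩ := hd' _ isIrrCharacter_one
    refine z2 ((H _ (mem_fam.2 ⟨μ, inKer_lf.1 e, ?_, ?_⟩)).trans ((H a a1).symm.trans a2)) <;>
      simpa [← Pi.one_def]
  obtain ⟨ε, hε, c, c1, c2, -, c3⟩ := h.exc (G := G) hζ
  obtain ⟨a, a1, a2⟩ := hd' ζ hζ
  obtain ⟨j, rfl⟩ : ∃ j, φ = c j := by
    by_contra hc
    push Not at hc
    have := c3 ⟨_, self_mem_fam z1⟩ ⟨a, a1⟩ φ hφ.isClassFunction
    rw [hφ.ip_of_ne (c1 _) (hc _), hφ.ip_of_ne (c1 _) (hc _), a2] at this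
    exact z2 (by simpa using this)
  have t := h.card_fam_ge hζ q1 q2
  have o := exc_ne_one hε (by rw [Fintype.card_coe]; omega) c1 c2 fun i j => by
    rw [← c3 i j _ isCharacter_one.isClassFunction, h.ip_one hζ i.2, h.ip_one hζ j.2, sub_self]
  have e : ∀ i, ip (blA K ψ - fun _ => 1) (c i) = ip (blA K ψ) (c j) := fun i => by
    have := c3 i j _ (h.isGen_blA m).isClassFunction
    have n : ∀ b ∈ fam P V ζ, ip ψ b = 0 := fun b hb =>
      (h.irr isIrrCharacter_one m).ip_of_ne (h.irr hζ hb) fun e => hV ((inKer_fam h.VK hζ hb).1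
        (e ▸ (inKer_fam h.VK isIrrCharacter_one m).2 fun _ _ => rfl))
    rw [h.ip_res_blA m hζ i.2 j.2, n _ i.2, n _ j.2] at this
    rw [ip_sub_left, o, sub_zero]
    rcases hε with rfl | rfl <;> linarith
  have b := bessel_one Finset.univ c (fun i _ j _ e => (c1 i).ip_of_ne (c1 j) fun e' => e (c2 e'))
    (fun i _ => (c1 i).ip_self) (blA K ψ - fun _ => 1)
  simp only [e, h.ip_blA_sub m, Finset.sum_const, Finset.card_univ, Fintype.card_coe,
    nsmul_eq_mul] at b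
  obtain ⟨n, hn⟩ := (h.isGen_blA m).ip_int (c1 j).isGen
  rw [ip_comm, hn]
  rw [hn] at b
  have b' : ((fam P V ζ).card : ℤ) * n ^ 2 ≤ K.index := by exact_mod_cast b
  have t' : (K.index : ℤ) + 1 ≤ (fam P V ζ).card := by exact_mod_cast t.1
  by_contra h0
  have : 1 ≤ n ^ 2 := (one_le_sq_iff_one_le_abs n).2 (Int.one_le_abs fun e => h0 (by simp [e]))
  nlinarith

theorem ip_blA_exc (q1 : K.index ^ 2 + 1 < V.relIndex K) (q2 : 5 < V.relIndex K) {ε : ℝ}
    (hε : ε = 1 ∨ ε = -1) {c : fam P V (fun _ : K => 1) → G → ℂ} (c1 : ∀ i, Irr G (c i))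
    (c2 : Function.Injective c) (c4 : ∀ i j, dg (c i) = dg (c j))
    (c3 : ∀ i j : fam P V (fun _ : K => 1), ∀ f, IsClassFunction G f →
      ip f↾L i - ip f↾L j = ε * (ip f (c i) - ip f (c j)))
    (o : ∀ i, ip (fun _ => 1) (c i) = 0) (i : fam P V (fun _ : K => 1)) :
    ip (blA K i.1) (c i) = -ε ∧ ∀ j, j ≠ i → ip (blA K i.1) (c j) = 0 := by
  classical
  have t := h.card_fam_ge isIrrCharacter_one q1 q2
  obtain ⟨a, ha⟩ := (h.isGen_blA i.2).ip_int (c1 i).isGen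
  obtain ⟨η, rfl⟩ : ∃ η : ℤ, ε = η := by
    rcases hε with rfl | rfl
    exacts [⟨1, by simp⟩, ⟨-1, by simp⟩]
  have hη : η = 1 ∨ η = -1 := by exact_mod_cast hε
  have e : ∀ j, j ≠ i → ip (blA K i.1) (c j) = a + η := fun j hj => by
    have := c3 j i _ (h.isGen_blA i.2).isClassFunction
    rw [h.ip_res_blA i.2 isIrrCharacter_one j.2 i.2, (h.irr isIrrCharacter_one i.2).ip_self,
      (h.irr isIrrCharacter_one i.2).ip_of_ne (h.irr isIrrCharacter_one j.2)
        fun e => hj (Subtype.ext e.symm), ha] at this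
    rcases hε with e | e <;> rw [e] at this ⊢ <;> linarith
  suffices a + η = 0 from ⟨by rw [ha, eq_neg_iff_add_eq_zero]; exact_mod_cast this,
    fun j hj => by rw [e j hj]; exact_mod_cast this⟩
  by_contra h0
  have s : ∑ j, ip (blA K i.1 - fun _ => 1) (c j) ^ 2 =
      (a ^ 2 + ((fam P V fun _ : K => 1).card - 1) * (a + η) ^ 2 : ℤ) := by
    rw [← Finset.add_sum_erase _ _ (Finset.mem_univ i), Finset.sum_congr rfl
      (g := fun _ => ((a : ℝ) + η) ^ 2) fun j hj => by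
        rw [ip_sub_left, o, e j (Finset.mem_erase.1 hj).1, sub_zero], ip_sub_left, o, ha,
      Finset.sum_const, Finset.card_erase_of_mem (Finset.mem_univ _), Finset.card_univ,
      Fintype.card_coe, nsmul_eq_mul, Nat.cast_sub (by omega)]
    push_cast; ring
  have h1 : 1 ≤ (a + η) ^ 2 := (one_le_sq_iff_one_le_abs _).2 (Int.one_le_abs h0)
  have t' : (K.index : ℤ) + 1 ≤ (fam P V fun _ : K => 1).card := by exact_mod_cast t.1
  have or : ∀ i ∈ Finset.univ, ∀ j ∈ Finset.univ, i ≠ j → ip (c i) (c j) = 0 :=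
    fun i _ j _ e => (c1 i).ip_of_ne (c1 j) fun e' => e (c2 e')
  have b := bessel_one Finset.univ c or (fun i _ => (c1 i).ip_self) (blA K i.1 - fun _ => 1)
  rw [s, h.ip_blA_sub i.2] at b
  have b' : a ^ 2 + ((fam P V fun _ : K => 1).card - 1) * (a + η) ^ 2 ≤ (K.index : ℤ) := by
    exact_mod_cast b
  have a0 : a = 0 := by
    by_contra a0
    have : 1 ≤ a ^ 2 := (one_le_sq_iff_one_le_abs _).2 (Int.one_le_abs a0)
    nlinarith
  have b2 := congrFun (eq_sum_of_bessel_one Finset.univ c or (fun i _ => (c1 i).ip_self)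
    (blA K i.1 - fun _ => 1) (by
      rw [s, h.ip_blA_sub i.2]
      have : (K.index : ℤ) ≤ a ^ 2 + ((fam P V fun _ : K => 1).card - 1) * (a + η) ^ 2 := by
        nlinarith
      exact_mod_cast this)) 1
  rw [Finset.sum_apply, ← Finset.add_sum_erase _ _ (Finset.mem_univ i), Finset.sum_congr rfl
      (g := fun _ => (η : ℂ) * dg (c i)) fun j hj => by
        rw [ip_sub_left, o, e j (Finset.mem_erase.1 hj).1, a0, Pi.smul_apply, (c1 j).deg, c4 j i]
        simp, ip_sub_left, o, ha, a0, Finset.sum_const,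
      Finset.card_erase_of_mem (Finset.mem_univ _), Finset.card_univ,
      Fintype.card_coe, nsmul_eq_mul, Nat.cast_sub (by omega), Pi.sub_apply, blA, indFun_one,
      eq_off_one i.2 fun e => e.2 (one_mem _)] at b2
  have b3 : (-1 : ℤ) = ((fam P V fun _ : K => 1).card - 1) * (η * dg (c i)) := by
    simp only [Int.cast_zero, sub_self, zero_smul, Pi.zero_apply, mul_zero, zero_sub,
      zero_add] at b2
    exact_mod_cast b2
  have t2 : (3 : ℤ) ≤ (fam P V fun _ : K => 1).card := by exact_mod_cast t.2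
  have d0 : (1 : ℤ) ≤ dg (c i) := by exact_mod_cast (c1 i).dg_pos
  rcases hη with rfl | rfl <;> nlinarith

theorem main (hχ : Irr G χ) (hd : dg χ ^ 2 + 1 < V.relIndex K) (h1 : χ ≠ fun _ => 1)
    (hnk : ∀ φ, Irr G φ → φ ≠ (fun _ => 1) → ¬ InKer P φ↾L) : ip (χ↾L)↾K (χ↾L)↾K ≤ 1 := by
  classical
  have r := hχ.isCharacter.res L
  obtain ⟨n, hn⟩ := (r.res K).ip_nat (r.res K)
  obtain ⟨e1, e2⟩ := h.index_le r (hnk χ hχ h1)
  rw [dg_congr (χ := χ↾L) (ψ := χ) rfl] at e2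
  rw [hn] at e1 ⊢
  replace e1 : K.index ≤ n := by exact_mod_cast e1
  by_contra hc
  replace hc : 2 ≤ n := by exact_mod_cast not_le.1 hc
  set β := χ * conjFun χ with hβ
  have b : Ch G β := hχ.isCharacter.mul hχ.conj.isCharacter
  have bd : β 1 = (dg χ ^ 2 : ℕ) := by simp [hβ, conjFun_apply, hχ.deg, sq]
  have bK := (b.res L).res K
  have bn : ip (β↾L)↾K (fun _ => 1) = n := (ip_mul_conj (r.res K)).trans hn
  have b0 := bK.sub_inner_smul isIrrCharacter_one
  rw [bK.isGen.inner_eq_ip isGen_one, bn] at b0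
  have d0 := dg_add b0 (isCharacter_one.natCast_smul n)
  rw [Complex.ofReal_natCast, sub_add_cancel, dg_eq (χ := (β↾L)↾K) bd,
    dg_eq (χ := (n : ℂ) • fun _ : K => (1 : ℂ)) (n := n) (by simp)] at d0
  have d2 : 2 ≤ dg χ := by
    by_contra h2
    have : dg χ ^ 2 ≤ 1 ^ 2 := Nat.pow_le_pow_left (by omega) 2
    omega
  have q1 : K.index ^ 2 + 1 < V.relIndex K := by nlinarith
  have q2 : 5 < V.relIndex K := by nlinarith
  have t := h.card_fam_ge isIrrCharacter_one q1 q2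
  obtain ⟨ε, hε, c, c1, c2, c4, c3⟩ := h.exc (G := G) isIrrCharacter_one
  have o := exc_ne_one hε (by rw [Fintype.card_coe]; omega) c1 c2 fun i j => by
    rw [← c3 i j _ isCharacter_one.isClassFunction, h.ip_one isIrrCharacter_one i.2,
      h.ip_one isIrrCharacter_one j.2, sub_self]
  have A := h.ip_blA_exc q1 q2 hε c1 c2 c4 c3 o
  have B : ∀ i : fam P V fun _ : K => 1, ip β↾L i = 0 → ε = -1 ∧ ip β (c i) ≠ 0 := by
    intro i hi
    have := b.ip_eq_zero_of_const (α := blA K i.1 - (fun _ => 1) + ε • c i) fun φ hφ e => by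
      rw [ip_add_right, ip_sub_right, ip_rsmul_right]
      rcases eq_or_ne φ fun _ => 1 with rfl | n1
      · rw [h.ip_blA_one i.2, o, hφ.ip_self]; ring
      rw [hφ.ip_of_ne isIrrCharacter_one n1]
      by_cases hj : ∃ j, φ = c j
      · obtain ⟨j, rfl⟩ := hj
        rw [ip_comm]
        rcases eq_or_ne j i with rfl | n2
        · rw [(A j).1, hφ.ip_self]; ring
        · rw [(A i).2 j n2, hφ.ip_of_ne (c1 i) fun e => n2 (c2 e)]; ring
      push Not at hj
      have := b.deg_le_of_inner_ne_zero hφ (b.inner_ne_of_ip hφ e) hφ.deg bd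
      rw [hφ.ip_of_ne (c1 i) (hj i), h.ip_blA_nonexc q1 q2 i.2 hφ (by omega) (hnk φ hφ n1)
        fun a ha => by
          rw [← sub_eq_zero, c3 ⟨a, ha⟩ i φ hφ.isClassFunction, hφ.ip_of_ne (c1 _) (hj _),
            hφ.ip_of_ne (c1 _) (hj _)]; ring]
      ring
    rw [ip_add_right, ip_sub_right, ip_rsmul_right, ip_blA b.isClassFunction, hi,
      ip_indFun_right _ _ (b.res L).isClassFunction, bn, ip_mul_conj hχ.isCharacter,
      hχ.ip_self] at this
    have h2 : (2 : ℝ) ≤ n := by exact_mod_cast hc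
    have h3 := b.ip_nonneg (c1 i).isCharacter
    rcases hε with rfl | rfl
    · linarith
    · exact ⟨rfl, fun e => by linarith⟩
  have w1 := Finset.card_filter_add_card_filter_not (s := twS P V fun _ : K => 1)
    fun μ => ip (β↾L)↾K (lf μ.1 * fun _ => 1) = 0
  have w2 := b0.card_mul_le ((twS P V fun _ : K => 1).filter
    fun μ => ¬ ip (β↾L)↾K (lf μ.1 * fun _ => 1) = 0) (fun μ => lf μ.1 * fun _ => 1)
    (fun μ _ => isIrrCharacter_one.lf_mul _) (h.tw_inj isIrrCharacter_one).injOn (fun μ a => by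
      obtain ⟨a1, a2⟩ := Finset.mem_filter.1 a
      rwa [ip_sub_left, ip_real_smul_left, isIrrCharacter_one.ip_of_ne (isIrrCharacter_one.lf_mul _)
        fun e => (Finset.mem_filter.1 a1).2 (e ▸ fun _ _ => rfl), mul_zero, sub_zero]) (k := 1)
    fun μ _ => (isIrrCharacter_one.lf_mul _).dg_pos
  have w3 := h.card_twS isIrrCharacter_one
  have w4 := h.card_le_image isIrrCharacter_one _ (Finset.filter_subset
    (fun μ => ip (β↾L)↾K (lf μ.1 * fun _ => 1) = 0) _)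
  rw [Complex.ofReal_natCast] at w2
  obtain ⟨x, hx, y, hy, hxy⟩ := Finset.one_lt_card.1 (show 1 < _ from by
    by_contra h2
    have := w4.trans (Nat.mul_le_mul_left _ (not_lt.1 h2))
    omega)
  have C : ∀ x ∈ ((twS P V fun _ : K => 1).filter
      fun μ => ip (β↾L)↾K (lf μ.1 * fun _ => 1) = 0).image
        fun μ => indFun K (lf μ.1 * fun _ => 1), x ∈ fam P V (fun _ : K => 1) ∧ ip β↾L x = 0 := by
    intro x hx
    obtain ⟨μ, a, rfl⟩ := Finset.mem_image.1 hx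
    obtain ⟨a1, a2⟩ := Finset.mem_filter.1 a
    exact ⟨mem_fam.2 ⟨μ, μ.2, (Finset.mem_filter.1 a1).2, rfl⟩, by
      rwa [ip_indFun_right _ _ (b.res L).isClassFunction]⟩
  obtain ⟨x1, x2⟩ := C x hx
  obtain ⟨y1, y2⟩ := C y hy
  obtain ⟨rfl, x3⟩ := B ⟨x, x1⟩ x2
  have z1 := b.card_mul_le {⟨x, x1⟩, ⟨y, y1⟩} c (fun i _ => c1 i) c2.injOn (fun i a => by
    rcases Finset.mem_insert.1 a with rfl | a
    · exact x3
    · rw [Finset.mem_singleton.1 a]; exact (B ⟨y, y1⟩ y2).2) (k := dg (c ⟨x, x1⟩))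
    fun i _ => (c4 _ _).le
  rw [Finset.card_pair fun e => hxy (congrArg Subtype.val e), dg_eq bd] at z1
  have rx := (c1 ⟨x, x1⟩).isCharacter.res L
  have z2 := rx.card_mul_le ((fam P V fun _ : K => 1).erase x) id
    (fun a m => h.irr isIrrCharacter_one (Finset.mem_of_mem_erase m)) (Set.injOn_id _)
    (fun a m => by
      obtain ⟨m1, m2⟩ := Finset.mem_erase.1 m
      have := c3 ⟨a, m2⟩ ⟨x, x1⟩ _ (c1 ⟨x, x1⟩).isClassFunction
      rw [(c1 _).ip_self, (c1 _).ip_of_ne (c1 _) fun e => m1 (congrArg Subtype.val (c2 e)).symm]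
        at this
      have := rx.ip_nonneg (h.irr isIrrCharacter_one x1).isCharacter
      intro e
      simp only [id] at e
      linarith) (k := K.index) fun a m =>
      (dg_eq (by simpa using deg_fam (Finset.mem_of_mem_erase m))).ge
  rw [Finset.card_erase_of_mem x1, dg_congr (χ := (c ⟨x, x1⟩)↾L) (ψ := c ⟨x, x1⟩) rfl] at z2
  have z3 := h.card_fam isIrrCharacter_one
  obtain ⟨u, hu⟩ : ∃ u, (fam P V fun _ : K => 1).card = u + 1 := ⟨_, (Nat.sub_add_cancel (by omega)).symm⟩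
  rw [hu] at z2 z3
  simp only [add_tsub_cancel_right] at z2
  nlinarith

end BL

theorem bl_data {p : ℕ} [Fact p.Prime] (S : Sylow p G)
    (hs : ∀ x ∈ (S : Subgroup G), x ≠ 1 → cen1 x = cen (S : Subgroup G))
    [Fintype (nrm (S : Subgroup G))] :
    BL ((cen (S : Subgroup G)).subgroupOf (nrm (S : Subgroup G)))
      ((S : Subgroup G).subgroupOf _) ((Op' p (cen (S : Subgroup G))).subgroupOf _) ∧
    (Op' p (cen (S : Subgroup G))).relIndex (cen (S : Subgroup G)) = ord (S : Subgroup G) := by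
  set P := (S : Subgroup G) with hP
  set C := cen P with hC
  set V := Op' p C with hV
  have PC : P ≤ C := fun x hx => by
    rcases eq_or_ne x 1 with rfl | e
    · exact one_mem _
    · rw [← hs x hx e]; exact self_mem_cen1 x
  have CP : C ≤ nrm P := cen_le_nrm P
  have sy : H2.IsSylowIn p P C := H2.sylow_isSylowIn S PC
  have VC : V ≤ C := Opi_le _ _
  have nV : C ≤ nrm V := le_nrm_Opi _ _
  have co : (ord P).Coprime (ord V) := (coprime_of_isPGroup S.isPGroup' (coprime_Op' p C)).symm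
  have e : P ⊔ V = C := by
    obtain ⟨H, h1, -, h3⟩ := exists_compl PC CP
      (coprime_of_isPGroup S.isPGroup' (coprime_iff_not_dvd.2 sy.not_dvd)).symm
    have HC : H ≤ C := h1 ▸ le_sup_left
    refine (sup_le PC VC).antisymm (h1.ge.trans (sup_le (le_sup_of_le_right (le_Op' HC
      (h1.ge.trans (sup_le (le_nrm_self H) (le_nrm_of_le_cen (le_cen_symm HC)))) ?_)) le_sup_left))
    rw [h3]; exact coprime_iff_not_dvd.2 sy.not_dvd
  have dec : ∀ k ∈ C, ∃ y ∈ P, ∃ v ∈ V, y * v = k := fun k hk =>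
    (mem_sup_nrm (PC.trans nV)).1 (e ▸ hk)
  have pw : ∀ k ∈ C, k ∉ V → k ^ ord V ∈ P ∧ k ^ ord V ≠ 1 := fun k hk hn => by
    obtain ⟨y, hy, v, hv, rfl⟩ := dec k hk
    rw [Commute.mul_pow (mem_cen.1 (VC hv) y hy), pow_card_eq_one'' hv, mul_one]
    refine ⟨pow_mem hy _, fun h => hn ?_⟩
    rwa [(pow_eq_one_iff_of_coprime co).1 ⟨pow_card_eq_one'' hy, h⟩, one_mul]
  refine ⟨⟨Subgroup.comap_mono PC, Subgroup.comap_mono VC, fun k hk => ?_, fun y hy => ?_, ?_,
    fun x hx z hz h => ?_, fun x a ha b hb h => ?_⟩, ?_⟩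
  · obtain ⟨y, hy, v, hv, h⟩ := dec k hk
    exact ⟨⟨y, CP (PC hy)⟩, hy, ⟨v, CP (VC hv)⟩, hv, Subtype.ext h⟩
  · exact mem_cen.2 fun b hb => Subtype.ext (mem_cen.1 hb _ hy).symm
  · rw [← subgroupOf_commutator CP CP]
    refine Subgroup.comap_mono ?_
    conv_lhs => rw [← e]
    rw [e]
    nth_rw 1 [← e]
    exact comm_sup_le (PC.trans nV) (le_nrm_self V)
      ((comm_eq_bot'.2 le_rfl).le.trans bot_le) (comm_le_left nV)
  · by_contra h1
    exact hx (show (x : G) ∈ C from hs z hz (fun e => h1 (Subtype.ext e)) ▸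
      mem_cen1.2 (congrArg Subtype.val h))
  · obtain ⟨a1, a2⟩ := pw a ha.1 ha.2
    obtain ⟨b1, b2⟩ := pw b hb.1 hb.2
    rw [Subgroup.range_subtype, ← Op_eq_of_sylow sy CP]
    refine nrm_Opi _ (le_refl (nrm C)) (cj_eq_self_iff.1 ?_)
    nth_rw 1 [← hs _ a1 a2]
    rw [cj_cen1, ← conj_pow, ← hs _ b1 b2]
    exact congrArg (fun z => cen1 (z ^ ord V)) h
  · rw [← e, relIndex_sup_nrm (PC.trans nV), ← Subgroup.inf_relIndex_right, inf_comm,
      eq_bot_of_coprime co, Subgroup.relIndex_bot_left]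

theorem brauer_leonard {p : ℕ} [Fact p.Prime] (S : Sylow p G)
    (hs : ∀ x ∈ (S : Subgroup G), x ≠ 1 → cen1 x = cen (S : Subgroup G)) (hχ : Irr G χ)
    (h1 : χ ≠ fun _ => 1) (hd : dg χ ^ 2 + 1 < ord (S : Subgroup G))
    (hK : ∀ K : Subgroup G, K.Normal → (S : Subgroup G) ≤ K → K = ⊤) :
    (∃ N : Subgroup G, N.Normal ∧ N.index = ord (S : Subgroup G)) ∧ χ 1 = 1 := by
  haveI := Fintype.ofFinite (nrm (S : Subgroup G))
  obtain ⟨h, hq⟩ := bl_data S hs
  set P := (S : Subgroup G) with hP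
  have CP : cen P ≤ nrm P := cen_le_nrm P
  haveI := normal_subgroupOf (le_refl (nrm P))
  haveI := normal_subgroupOf (nrm_cen (le_refl (nrm P)))
  haveI := normal_subgroupOf (nrm_Opi {p}ᶜ (nrm_cen (le_refl (nrm P))))
  haveI := Fintype.ofFinite ((cen P).subgroupOf (nrm P))
  have hnk : ∀ φ, Irr G φ → φ ≠ (fun _ => 1) → ¬ InKer (P.subgroupOf (nrm P)) φ↾(nrm P) :=
    fun φ hφ n e => n (hφ.eq_one_of_const fun g => hφ.isCharacter.mem_charKer.1
      (hK _ hφ.isClassFunction.charKer_normal (fun y hy => hφ.isCharacter.mem_charKer.2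
        (e ⟨y, le_nrm_self P hy⟩ hy)) ▸ Subgroup.mem_top g))
  have m := h.main hχ (by rwa [Subgroup.relIndex_subgroupOf CP, hq]) h1 hnk
  have r := (hχ.isCharacter.res (nrm P)).res ((cen P).subgroupOf (nrm P))
  have i := (h.index_le (hχ.isCharacter.res (nrm P)) (hnk χ hχ h1)).1
  have i0 : 1 ≤ ((cen P).subgroupOf (nrm P)).index :=
    Nat.pos_of_ne_zero Subgroup.index_ne_zero_of_finite
  have i1 : ((cen P).subgroupOf (nrm P)).index = 1 :=
    le_antisymm (by exact_mod_cast i.trans m) i0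
  rw [i1, Nat.cast_one] at i
  have ir := r.isIrr_of_inner_self (by rw [inner_self_eq_ip, le_antisymm m i]; simp)
  refine ⟨⟨_, inferInstance, (MonoidHom.ker_transferSylow_isComplement' S
    (Subgroup.subgroupOf_eq_top.1 (Subgroup.index_eq_one.1 i1))).symm.index_eq_card⟩,
    hχ.deg_eq_one_of_charCenter (hK _ hχ.isClassFunction.charCenter_normal fun y hy => ?_)⟩
  exact hχ.isCharacter.mem_charCenter.2 (r.mem_charCenter.1 (ir.center_le_charCenter
    (x := ⟨⟨y, le_nrm_self P hy⟩, h.PK hy⟩) (Subgroup.mem_center_iff.2 fun g =>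
      Subtype.ext (h.cenP (show (⟨y, le_nrm_self P hy⟩ : nrm P) ∈ _ from hy) _ g.2))))

universe u in
theorem brauer_leonard_normal {p : ℕ} [Fact p.Prime] (m : ℕ) : ∀ (G : Type u) [Group G] [Finite G],
    Nat.card G = m → ∀ (S : Sylow p G), (∀ x ∈ (S : Subgroup G), x ≠ 1 →
      cen1 x = cen (S : Subgroup G)) → ∀ χ : G → ℂ, Ch G χ → (∀ g, χ g = χ 1 → g = 1) →
      dg χ ^ 2 + 1 < ord (S : Subgroup G) → (S : Subgroup G).Normal := by
  induction m using Nat.strong_induction_on with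
  | _ m ih =>
  intro G _ _ hm S hs χ hχ hf hd
  haveI := Fintype.ofFinite G
  by_cases hK : ∀ K : Subgroup G, K.Normal → (S : Subgroup G) ≤ K → K = ⊤
  · have : ∀ a b : G, a * b = b * a := fun a b => commutatorElement_eq_one_iff_mul_comm.1 (hf _
      (hχ.eq_deg_of_const fun ψ hψ e => by
        rcases eq_or_ne ψ fun _ => 1 with rfl | n
        · rfl
        have := hχ.deg_le_of_inner_ne_zero hψ e hψ.deg hχ.deg
        obtain ⟨l, rfl⟩ := hψ.isCharacter.exists_lf (brauer_leonard S hs hψ n (by nlinarith) hK).2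
        simp [lf, commutatorElement_def, mul_comm]))
    exact ⟨fun n hn g => by rwa [this g, mul_inv_cancel_right]⟩
  push Not at hK
  obtain ⟨K, _, h1, h2⟩ := hK
  haveI := ih _ (hm ▸ card_lt_of_ne_top h2) K rfl (S.subtype h1) (fun x hx n => by
    ext y
    rw [mem_cen1, mem_cen, Subtype.ext_iff, Subgroup.coe_mul, Subgroup.coe_mul, ← mem_cen1,
      hs x hx fun e => n (Subtype.ext e), mem_cen]
    exact ⟨fun h b hb => Subtype.ext (h b hb), fun h b hb =>
      congrArg Subtype.val (h ⟨b, h1 hb⟩ hb)⟩) _ (hχ.res K) (fun g e => Subtype.ext (hf _ e)) (by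
    rwa [Sylow.coe_subtype, card_subgroupOf_of_le h1])
  haveI : ((S : Subgroup G).subgroupOf K).Characteristic :=
    (S.subtype h1).characteristic_of_normal this
  rw [← Subgroup.map_subgroupOf_eq_of_le h1]
  exact ConjAct.normal_of_characteristic_of_normal

end
end H3
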