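import Mathlib
import Cfsg.Agent.H8.Feit3
import Cfsg.Agent.H8.Feit2
import Cfsg.Agent.H1.BG3a
import Cfsg.Agent.H1.SZ

/-! Exceptional characters for Frobenius normalisers: Feit's coherence theorem in general form. -/

open Cfsg H7
open scoped ComplexConjugate commutatorElement

set_option maxSynthPendingDepth 3
set_option linter.unusedSectionVars false

namespace H3
open H3

noncomputable section

section Abs
variable {L : Type*} [Group L] [Fintype L] {G : Type*} [Group G] [Fintype G]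
  {K Y : Subgroup L} {τ : (L → ℂ) → G → ℂ}

theorem frobMod_of_cen (hC : ∀ h ∈ K, h ≠ 1 → Subgroup.centralizer ({h} : Set L) ≤ K) :
    FrobMod K ⊥ := by
  intro k hk h1 x hx
  refine hC k hk (by simpa using h1) (Subgroup.mem_centralizer_singleton_iff.2 ?_)
  rw [Subgroup.mem_bot, mul_inv_eq_one, mul_inv_eq_iff_eq_mul] at hx
  exact hx

theorem FrobMod.lt_relIndex [K.Normal] (hf : FrobMod K ⊥) {A B : Subgroup L} [A.Normal]
    [B.Normal] (hBA : B < A) (hAK : A ≤ K) : K.index + 1 ≤ B.relIndex A := by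
  have h1 := (hf.quot (hBA.le.trans hAK)).dvd hBA.le hAK
  have h2 := relIndex_ne_one hBA
  have h3 := relIndex_pos B A
  have := Nat.le_of_dvd (by omega) h1
  omega

theorem FrobMod.coprime [K.Normal] (hf : FrobMod K ⊥) : (Nat.card K).Coprime K.index := by
  have h1 := hf.dvd (N := K) bot_le le_rfl
  rw [Subgroup.relIndex_bot_left] at h1
  have h2 : 1 ≤ Nat.card K := Nat.card_pos
  obtain ⟨c, hc⟩ := h1
  have : Nat.card K = K.index * c + 1 := by omega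
  rw [this]
  simp

theorem FrobMod.nilp [K.Normal] (hf : FrobMod K ⊥) (hK : K ≠ ⊤) : Group.IsNilpotent K := by
  have h1 : K.index ≠ 1 := fun e => hK (Subgroup.index_eq_one.1 e)
  obtain ⟨q, hq, hd⟩ := Nat.exists_prime_and_dvd h1
  haveI := Fact.mk hq
  obtain ⟨x, hx⟩ := exists_prime_orderOf_dvd_card' (G := L) q (hd.trans K.index_dvd_card)
  have hxK : x ∉ K := fun h => by
    have h2 : q ∣ Nat.card K := hx ▸ K.orderOf_dvd_natCard h
    exact hq.ne_one (Nat.eq_one_of_dvd_coprimes hf.coprime h2 hd)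
  refine H1B.nilp_of_fpf (R := Subgroup.zpowers x) Subgroup.le_normalizer_of_normal
    (by rwa [Nat.card_zpowers, hx]) (eq_bot_iff.2 fun k hk => ?_)
  exact hf.fpf hxK hk.1 (hk.2 x (Subgroup.mem_zpowers x))

theorem FrobMod.seqInd_eq [K.Normal] (hf : FrobMod K ⊥) {Z : Subgroup L} [Z.Normal]
    (hZ : Z ≤ K) : seqInd K Z ⊥ = {χ | IsIrrCharacter L χ ∧ ∃ h ∈ Z, χ h ≠ χ 1} := by
  rw [seqInd_eq_irr hZ fun χ h => hf.irr bot_le (seqInd_mono_left hZ h)]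
  simp only [not_inKer]

theorem coh_of_same_deg {S : Set (L → ℂ)} (hirr : ∀ χ ∈ S, IsIrrCharacter L χ)
    (hdeg : ∀ χ ∈ S, ∀ φ ∈ S, χ 1 = φ 1) {χ₁ : L → ℂ} (h₁ : χ₁ ∈ S) (h2 : ∃ χ ∈ S, χ ≠ χ₁)
    (hτ : IsLinearIsometryOn (zspanOn S {1}ᶜ) τ) (hτ1 : ∀ α ∈ zspanOn S {1}ᶜ, τ α 1 = 0) :
    IsCoherent S {1}ᶜ τ := by
  classical
  have hm : ∀ i : S, (i : L → ℂ) - χ₁ ∈ zspanOn S {1}ᶜ := fun i =>
    sub_mem_zspanOn i.2 h₁ (hdeg _ i.2 _ h₁)
  have hne : ∀ i : S, i ≠ ⟨χ₁, h₁⟩ → (i : L → ℂ) ≠ χ₁ := fun i h e => h (Subtype.ext e)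
  obtain ⟨ε, hε, μ, hμ, hinj, hμe⟩ := exists_sign_irr_of_gram (⟨χ₁, h₁⟩ : S)
    (fun i : S => τ ((i : L → ℂ) - χ₁)) (by simpa using hτ.map_zero)
    (fun i => hτ.isGen (hm i)) (fun i => hτ1 _ (hm i)) (fun i hi => by
      rw [hτ.ip (hm i) (hm i), ip_sub_sub_irr (hirr _ i.2) (hirr _ h₁) (hirr _ i.2) (hirr _ h₁)]
      simp [hne i hi, (hne i hi).symm]; norm_num) (fun i j hi hj hij => by
      rw [hτ.ip (hm i) (hm j), ip_sub_sub_irr (hirr _ i.2) (hirr _ h₁) (hirr _ j.2) (hirr _ h₁)]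
      have : (i : L → ℂ) ≠ j := fun e => hij (Subtype.ext e)
      simp [hne i hi, (hne j hj).symm, this])
  refine isCoherent_of_family (fun χ hχ => (hirr χ hχ).isGen) (fun χ hχ => (hirr χ hχ).ne_zero)
    (fun χ hχ φ hφ hne => (hirr χ hχ).ip_of_ne (hirr φ hφ) hne) hτ
    (fun χ => if hχ : χ ∈ S then ε • μ ⟨χ, hχ⟩ else 0) (fun χ hχ => ?_)
    (fun χ hχ φ hφ => ?_) h₁ (hirr _ h₁).deg_ne_zero h2 (fun χ hχ => ⟨1, 1, one_ne_zero, ?_, ?_⟩)
  · simp only [dif_pos hχ]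
    rcases hε with rfl | rfl
    · simpa using (hμ _).isGen
    · simpa using (hμ _).isGen.neg
  · simp only [dif_pos hχ, dif_pos hφ]
    have e1 : ip (ε • μ ⟨χ, hχ⟩) (ε • μ ⟨φ, hφ⟩) = ip (μ ⟨χ, hχ⟩) (μ ⟨φ, hφ⟩) := by
      rcases hε with rfl | rfl
      · simp
      · simp [ip_neg_left, ip_neg_right]
    rw [e1, (hμ _).ip_eq_ite (hμ _), (hirr _ hχ).ip_eq_ite (hirr _ hφ)]
    simp [hinj.eq_iff]
  · rw [hdeg _ hχ _ h₁]
  · simp only [dif_pos hχ, dif_pos h₁, one_smul]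
    rw [hμe ⟨χ, hχ⟩, smul_sub]

theorem FrobMod.exists_ne [K.Normal] (hf : FrobMod K ⊥) [Y.Normal]
    (hYK : Y ≤ K) (hbig : K.index + 1 < Y.relIndex K) {χ₁ : L → ℂ}
    (h₁ : χ₁ ∈ seqInd K K Y) (d₁ : χ₁ 1 = K.index) : ∃ χ ∈ seqInd K K Y, χ ≠ χ₁ := by
  by_contra hc
  push Not at hc
  have hK0 : K.index ≠ 0 := Subgroup.index_ne_zero_of_finite
  have h3 := wsum_mono (Set.finite_singleton χ₁) (S := seqInd K K Y) fun χ hχ => hc χ hχ
  rw [wsum_seqInd_self hYK, wsum_singleton,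
    (hf.irr bot_le (seqInd_subset_bot h₁)).wt_eq, d₁] at h3
  simp only [Complex.natCast_re] at h3
  have h4 : (0 : ℝ) < K.index := by positivity
  have h5 : ((K.index : ℝ) + 1) < Y.relIndex K := by exact_mod_cast hbig
  nlinarith

theorem FrobMod.coh_lin [K.Normal] (hf : FrobMod K ⊥)
    (hτ : IsLinearIsometryOn (zspanOn (seqInd K K ⊥) {1}ᶜ) τ)
    (hτ1 : ∀ α ∈ zspanOn (seqInd K K ⊥) {1}ᶜ, τ α 1 = 0) [Y.Normal]
    (hY : ⁅K, K⁆ ≤ Y) (hYK : Y ≤ K) (hbig : K.index + 1 < Y.relIndex K) :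
    IsCoherent (seqInd K K Y) {1}ᶜ τ := by
  have hdeg : ∀ χ ∈ seqInd K K Y, χ 1 = K.index := fun χ hχ => deg_eq_of_commutator hY hχ.1 hχ.2.2
  have hK0 : K.index ≠ 0 := Subgroup.index_ne_zero_of_finite
  obtain ⟨χ₁, h₁, d₁⟩ := exists_mem_seqInd_deg (K := K) (H := K) (Y := Y) (by
    rw [sup_eq_right.2 hY]
    intro hle
    rw [Subgroup.relIndex_eq_one.2 hle] at hbig
    omega) le_rfl hYK
  have hs := zspanOn_mono (seqInd_subset_bot (K := K) (H := K) (Y := Y)) {1}ᶜ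
  exact coh_of_same_deg (fun χ hχ => hf.irr bot_le (seqInd_subset_bot hχ))
    (fun χ hχ φ hφ => by rw [hdeg _ hχ, hdeg _ hφ]) h₁ (hf.exists_ne hYK hbig h₁ d₁)
    (hτ.mono hs) fun α hα => hτ1 α (hs hα)

/-- Feit's coherence theorem. -/
theorem FrobMod.feit [K.Normal] (hf : FrobMod K ⊥) (hn : Group.IsNilpotent K)
    (hτ : IsLinearIsometryOn (zspanOn (seqInd K K ⊥) {1}ᶜ) τ)
    (hτ1 : ∀ α ∈ zspanOn (seqInd K K ⊥) {1}ᶜ, τ α 1 = 0)
    (hK : K ≠ ⊥) (hne : Nat.card K ≠ K.index + 1) :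
    IsCoherent (seqInd K K ⊥) {1}ᶜ τ ∨ ∃ p : ℕ, p.Prime ∧
      IsPGroup p K ∧ ⁅K, K⁆ ≠ ⊥ ∧ (⁅K, K⁆ : Subgroup L).relIndex K ≤ 4 * K.index ^ 2 + 1 := by
  classical
  haveI := hn
  have hs : Group.IsSolvable K := inferInstance
  have hE : ExtP (seqInd K K ⊥) τ := extP_of_irr (fun _ hχ => hf.irr bot_le hχ) hτ hτ1
  have hlt : ⁅K, K⁆ < K := nilp_comm_lt hn le_rfl (le_nrm_self _) hK
  by_cases hK' : ⁅K, K⁆ = ⊥
  · left
    have h1 := hf.lt_relIndex (bot_lt_iff_ne_bot.2 hK) le_rfl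
    rw [Subgroup.relIndex_bot_left] at h1
    exact hf.coh_lin hτ hτ1 hK'.le bot_le (by rw [Subgroup.relIndex_bot_left]; omega)
  by_cases hbig : 4 * K.index ^ 2 + 1 < (⁅K, K⁆ : Subgroup L).relIndex K
  · left
    have hK0 : K.index ≠ 0 := Subgroup.index_ne_zero_of_finite
    exact hE.bounded63 hs bot_le hlt.le le_rfl (nil_map_bot hn)
      (hf.coh_lin hτ hτ1 le_rfl hlt.le (by nlinarith [Nat.pos_of_ne_zero hK0])) hbig
  obtain ⟨p, hp, hev⟩ := Nat.exists_prime_and_dvd (n := Nat.card K)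
    (fun e => hK (Subgroup.card_eq_one.1 e))
  haveI := Fact.mk hp
  by_cases h2 : IsPGroup p K
  · exact Or.inr ⟨p, hp, h2, hK', not_lt.1 hbig⟩
  left
  set P := Op p K with hP
  set Q := Op' p K with hQ
  have hPQ : P ⊔ Q = K := nilp_Opi_sup hn _
  have hPK : P ≤ K := Opi_le _ _
  have hQK : Q ≤ K := Opi_le _ _
  have hKn : (⊤ : Subgroup L) ≤ nrm K := by
    rw [top_le_iff]; exact Subgroup.normalizer_eq_top _
  haveI : P.Normal := Subgroup.normalizer_eq_top_iff.1 (top_le_iff.1 (nrm_Opi _ hKn))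
  haveI : Q.Normal := Subgroup.normalizer_eq_top_iff.1 (top_le_iff.1 (nrm_Opi _ hKn))
  have hPne : P ≠ K := fun e => h2 (e ▸ isPGroup_Op p K)
  have hQne : Q ≠ K := fun e => not_dvd_Op' p K (by rw [← hQ, e]; exact hev)
  have hcop : (Nat.card P).Coprime (Nat.card Q) := by
    obtain ⟨k, hk⟩ := IsPGroup.iff_card.1 (isPGroup_Op p K)
    rw [hk]
    exact Nat.Coprime.pow_left _ (coprime_Op' p K).symm
  obtain ⟨B, ⟨b1, b3⟩, hmax⟩ := Set.Finite.exists_maximal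
    (s := {B : Subgroup L | B.Normal ∧ B < ⁅K, K⁆}) (Set.toFinite _)
    ⟨⊥, inferInstance, bot_lt_iff_ne_bot.2 hK'⟩
  have hm : ∀ N : Subgroup L, N.Normal → B ≤ N → N < ⁅K, K⁆ → N = B := fun N n1 n2 n3 =>
    (hmax ⟨n1, n3⟩ n2).antisymm n2
  have hc1 : ⁅⁅K, K⁆, K⁆ ≤ B := comm_le_of_chief (M := ⊥) (nil_map_bot hn) hlt.le bot_le b3 hm
  have hd1 := hf.lt_relIndex b3 hlt.le
  have hK0 : 1 ≤ K.index := Nat.pos_of_ne_zero Subgroup.index_ne_zero_of_finite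
  have key : ∀ R R' : Subgroup L, R.Normal → R'.Normal → R ⊔ R' = K → R ≠ K → R' ≠ K →
      ⁅R, K⁆ ≤ B → IsCoherent (seqInd K K ⊥) {1}ᶜ τ := by
    intro R R' _ _ hR h1 h2 hRB
    have hRK : R ≤ K := hR ▸ le_sup_left
    have hR'K : R' ≤ K := hR ▸ le_sup_right
    have hDK : ⁅K, K⁆ ⊔ R ≤ K := sup_le hlt.le hRK
    have hx : K.index + 1 ≤ (⁅K, K⁆ ⊔ R).relIndex K :=
      hf.lt_relIndex (lt_of_le_of_ne hDK fun e => h1 (hRK.antisymm
        (nilp_le_of_le_sup_comm hn le_rfl Subgroup.le_normalizer_of_normal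
          (by rw [sup_comm]; exact e.ge)))) le_rfl
    have hy : K.index + 1 ≤ (⁅K, K⁆ : Subgroup L).relIndex (⁅K, K⁆ ⊔ R) := by
      refine hf.lt_relIndex (lt_of_le_of_ne le_sup_left fun e => h2 (hR'K.antisymm
        (nilp_le_of_le_sup_comm hn le_rfl Subgroup.le_normalizer_of_normal ?_))) hDK
      calc K = R ⊔ R' := hR.symm
        _ ≤ R' ⊔ ⁅K, K⁆ := sup_le ((le_sup_right.trans e.ge).trans le_sup_right) le_sup_left
    have hxy := Subgroup.relIndex_mul_relIndex ⁅K, K⁆ (⁅K, K⁆ ⊔ R) K le_sup_left hDK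
    have hB := Subgroup.relIndex_mul_relIndex B ⁅K, K⁆ K b3.le hlt.le
    set x := (⁅K, K⁆ ⊔ R).relIndex K
    set y := (⁅K, K⁆ : Subgroup L).relIndex (⁅K, K⁆ ⊔ R)
    set z := B.relIndex ⁅K, K⁆
    set w := (⁅K, K⁆ : Subgroup L).relIndex K
    set d := K.index
    have hw : (d + 1) * x ≤ w := by rw [← hxy]; exact Nat.mul_le_mul_right _ hy
    have hw2 : (d + 1) * (d + 1) ≤ w := (Nat.mul_le_mul_left _ hx).trans hw
    have hcA := hf.coh_lin hτ hτ1 le_rfl hlt.le (by nlinarith)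
    have hcB := hE.union62 hs hlt (b3.le.trans le_sup_left) hDK le_rfl
      (comm_sup_le Subgroup.le_normalizer_of_normal Subgroup.le_normalizer_of_normal hc1 hRB) hcA
      (by
        have h3 : d * (x + 1) ≤ w - 1 := by
          have : d * (x + 1) + 1 ≤ w := by nlinarith
          omega
        have h4 : (d * (x + 1)) ^ 2 ≤ (w - 1) ^ 2 := Nat.pow_le_pow_left h3 2
        refine lt_of_lt_of_le ?_ h4
        obtain ⟨x', hx'⟩ : ∃ x', x = x' + 2 := ⟨x - 2, by omega⟩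
        have h5 : 4 * x < (x + 1) ^ 2 := by rw [hx']; nlinarith
        calc 4 * d ^ 2 * x = d ^ 2 * (4 * x) := by ring
          _ < d ^ 2 * (x + 1) ^ 2 := Nat.mul_lt_mul_of_pos_left h5 (by positivity)
          _ = _ := by ring)
    rw [Set.union_eq_right.2 (seqInd_mono b3.le)] at hcB
    refine hE.bounded63 hs bot_le (b3.le.trans hlt.le) le_rfl (nil_map_bot hn) hcB ?_
    rw [← hB]
    have h6 : (d + 1) * ((d + 1) * (d + 1)) ≤ z * w := Nat.mul_le_mul hd1 hw2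
    obtain ⟨e, he⟩ : ∃ e, d = e + 1 := ⟨d - 1, by omega⟩
    refine lt_of_lt_of_le ?_ h6
    rw [he]; nlinarith [Nat.zero_le (e * e * e)]
  by_cases hPB : ⁅P, K⁆ ≤ B
  · exact key P Q inferInstance inferInstance hPQ hPne hQne hPB
  by_cases hQB : ⁅Q, K⁆ ≤ B
  · exact key Q P inferInstance inferInstance (by rw [sup_comm]; exact hPQ) hQne hPne hQB
  exfalso
  have aux : ∀ R : Subgroup L, R.Normal → R ≤ K → ¬ ⁅R, K⁆ ≤ B →
      B.relIndex ⁅K, K⁆ ∣ Nat.card R := by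
    intro R _ hRK hRB
    have h1 : B ⊔ ⁅R, K⁆ ≤ ⁅K, K⁆ := sup_le b3.le (Subgroup.commutator_mono hRK le_rfl)
    have h2 : B ⊔ ⁅R, K⁆ = ⁅K, K⁆ := by
      by_contra hne
      exact hRB (le_sup_right.trans (hm _ inferInstance le_sup_left (lt_of_le_of_ne h1 hne)).le)
    rw [← h2, Subgroup.relIndex_sup_left]
    exact (relIndex_dvd_card' _ _).trans
      (Subgroup.card_dvd_of_le (Subgroup.commutator_le_left _ _))
  have := (Nat.coprime_self _).1
    ((hcop.coprime_dvd_left (aux P inferInstance hPK hPB)).coprime_dvd_right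
      (aux Q inferInstance hQK hQB))
  omega

/-- The case `|K| = e + 1`. -/
theorem FrobMod.sharp [K.Normal] (hf : FrobMod K ⊥) (hn : Group.IsNilpotent K)
    (he : Nat.card K = K.index + 1) :
    (∃ χ, seqInd K K ⊥ = {χ}) ∧ ∃ p : ℕ, p.Prime ∧ p ∣ Nat.card K ∧ IsElementaryAbelian p K := by
  haveI := hn
  have hK0 : 0 < K.index := Nat.pos_of_ne_zero Subgroup.index_ne_zero_of_finite
  have hK : K ≠ ⊥ := fun e => by rw [e] at he; simp at he
  constructor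
  · obtain ⟨χ₁, h₁, d₁⟩ := exists_mem_seqInd_deg (K := K) (H := K) (Y := ⊥)
      (not_le_commutator_sup inferInstance (bot_lt_iff_ne_bot.2 hK)) le_rfl bot_le
    refine ⟨χ₁, Set.eq_singleton_iff_unique_mem.2 ⟨h₁, fun χ hχ => ?_⟩⟩
    by_contra hne
    have h3 := wsum_mono (finite_seqInd K K ⊥) (S := {χ₁} ∪ {χ}) (by
      rintro x (rfl | rfl) <;> assumption)
    rw [wsum_union (Set.finite_singleton _) (Set.finite_singleton _)
      (by simpa using Ne.symm hne), wsum_seqInd_self bot_le, wsum_singleton, wsum_singleton,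
      (hf.irr bot_le h₁).wt_eq, (hf.irr bot_le hχ).wt_eq, d₁, Subgroup.relIndex_bot_left,
      he] at h3
    obtain ⟨n, hn0, hn⟩ := (hf.irr bot_le hχ).exists_deg
    rw [hn] at h3
    simp only [Complex.natCast_re] at h3
    push_cast at h3
    have : (0 : ℝ) < n := by exact_mod_cast hn0
    nlinarith
  · have hmin : H1.IsMinNormal K := ⟨inferInstance, hK, fun N hN hle => by
      rcases eq_or_ne N ⊥ with h | h
      · exact Or.inl h
      · right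
        have := hf.lt_relIndex (bot_lt_iff_ne_bot.2 h) hle
        rw [Subgroup.relIndex_bot_left, ← he] at this
        exact Subgroup.eq_of_le_of_card_ge hle this⟩
    obtain ⟨h1, p, hp, h2, h3⟩ := hmin.elementary
    exact ⟨p, hp, h2, h1, h3⟩

theorem FrobMod.odd_index [K.Normal] (hf : FrobMod K ⊥) (hna : ⁅K, K⁆ ≠ ⊥) : Odd K.index := by
  rw [← Nat.not_even_iff_odd]
  intro hev
  obtain ⟨t, ht⟩ := exists_prime_orderOf_dvd_card' (G := L) 2 (hev.two_dvd.trans K.index_dvd_card)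
  have htK : t ∉ K := fun h => by
    have h2 : 2 ∣ Nat.card K := ht ▸ K.orderOf_dvd_natCard h
    exact absurd (Nat.eq_one_of_dvd_coprimes hf.coprime h2 hev.two_dvd) (by norm_num)
  have htt : t * t = 1 := by rw [← pow_two, ← ht, pow_orderOf_eq_one]
  haveI := H1.isMulCommutative_of_inverts (K := K) (t := t) fun k hk =>
    H1.inverts_of_fpf_involution (by rw [htt]; exact one_mem _)
      (Subgroup.le_normalizer_of_normal (Subgroup.mem_top t)) (eq_bot_iff.2 fun k hk =>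
        hf.fpf htK hk.1 (Subgroup.mem_centralizer_singleton_iff.1 hk.2).symm) hk
  exact hna (Subgroup.commutator_eq_bot_iff_le_centralizer.2 (Subgroup.le_centralizer K))

end Abs

section TI
variable {G : Type*} [Group G] [Fintype G] {L : Subgroup G} [Fintype L] {K : Subgroup L}
  {τ₁ : (L → ℂ) → G → ℂ}

theorem tik_of {K : Subgroup G} (hTI : ∀ g : G, g ∉ L → ∀ k ∈ K, g * k * g⁻¹ ∈ K → k = 1) :
    H8.TIk (K.subgroupOf L) := by
  intro g x hx h1 h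
  by_contra hg
  exact h1 (Subtype.ext (hTI g hg x hx (by
    rw [Subgroup.subgroupOf_map_subtype] at h; exact h.1)))

theorem frob_of {K : Subgroup G}
    (hC : ∀ h ∈ K, h ≠ 1 → Subgroup.centralizer ({h} : Set G) ≤ K) :
    FrobMod (K.subgroupOf L) ⊥ :=
  frobMod_of_cen fun h hh h1 x hx => hC h hh (fun e => h1 (Subtype.ext e))
    (Subgroup.mem_centralizer_singleton_iff.2
      (congrArg Subtype.val (Subgroup.mem_centralizer_singleton_iff.1 hx)))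

theorem feit_sibley [K.Normal] (h : H8.TIk K) (hf : FrobMod K ⊥) (hn : Group.IsNilpotent K)
    (hK : K ≠ ⊥) (hne : Nat.card K ≠ K.index + 1) :
    IsCoherent (seqInd K K ⊥) {1}ᶜ (indFun L) ∨ (IsPGroup 2 K ∧ ⁅K, K⁆ ≠ ⊥ ∧ Odd K.index ∧
      (⁅K, K⁆ : Subgroup L).relIndex K ≤ 4 * K.index ^ 2 + 1) := by
  rcases eq_or_ne ⁅K, K⁆ ⊥ with hK' | hK'
  · left
    have h1 := hf.lt_relIndex (bot_lt_iff_ne_bot.2 hK) le_rfl
    rw [Subgroup.relIndex_bot_left] at h1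
    exact h.coh_lin hf hK'.le bot_le (by rw [Subgroup.relIndex_bot_left]; omega)
  · have ho := hf.odd_index hK'
    exact (h.feit hf hn hK ho hne).imp_right fun ⟨a, b, c⟩ => ⟨a, b, ho, c⟩

theorem exc_nonconst [K.Normal] (hf : FrobMod K ⊥)
    (hτ₁ : IsLinearIsometryOn (zspan (seqInd K K ⊥)) τ₁)
    (he : ∀ α ∈ zspanOn (seqInd K K ⊥) {1}ᶜ, τ₁ α = indFun L α) {χ ξ : L → ℂ}
    (hχ : χ ∈ seqInd K K ⊥) (hξ : ξ ∈ seqInd K K ⊥) (hne : χ ≠ ξ) {c : ℂ}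
    (hc : ∀ z : L, z ∈ K → z ≠ 1 → τ₁ χ z = c) : False := by
  have i1 := hf.irr bot_le hχ
  have i2 := hf.irr bot_le hξ
  obtain ⟨a, ha0, ha⟩ := i1.exists_deg
  obtain ⟨b, hb0, hb⟩ := i2.exists_deg
  have hα := nsmul_sub_nsmul_mem_zspanOn hχ hξ (m := b) (n := a) (by rw [ha, hb]; ring)
  have h1 : ip (τ₁ χ) (τ₁ (b • χ - a • ξ)) = b := by
    rw [hτ₁.ip (mem_zspan hχ) (zspanOn_subset _ _ hα), ip_sub_right, ip_nsmul_right,
      ip_nsmul_right, i1.ip_self, i1.ip_of_ne i2 hne]; simp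
  have o : ∀ φ ∈ seqInd K K ⊥, classInner φ (fun _ => 1) = 0 := fun φ hφ =>
    (hf.irr bot_le hφ).inner_of_ne isIrrCharacter_one fun e => hφ.2.1 (by rw [e]; exact fun _ _ => rfl)
  rw [he _ hα, ip_indFun_right _ _ (hτ₁.isGen (mem_zspan hχ)).isClassFunction, ip_comm, ip_def,
    inner_congr_support (η' := c • fun _ => 1) (fun x hx => by
      have := mt (H8.supp_zspanOn seqInd_subset hα x) hx
      rw [not_not] at this
      simp [hc x this.1 this.2]), inner_smul_right, inner_sub_left, inner_nsmul_left,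
    inner_nsmul_left, o _ hχ, o _ hξ] at h1
  simp only [mul_zero, sub_self, Complex.zero_re] at h1
  exact hb0.ne (by exact_mod_cast h1)

theorem exc_res [K.Normal] (h : H8.TIk K) (hs : Group.IsSolvable K) (hK : K ≠ ⊥)
    (hτ₁ : IsLinearIsometryOn (zspan (seqInd K K ⊥)) τ₁)
    (he : ∀ α ∈ zspanOn (seqInd K K ⊥) {1}ᶜ, τ₁ α = indFun L α) :
    ∃ m : ℤ, ∀ χ ∈ seqInd K K ⊥, ∀ k : L, k ∈ K → k ≠ 1 →
      τ₁ χ k - χ k = m * χ 1 / K.index := by
  obtain ⟨φ₁, h₁, d₁⟩ := H8.exists_base hs hK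
  have g₁ := hτ₁.isGen (mem_zspan h₁)
  have hδ : IsGeneralizedCharacter L ((fun x : L => τ₁ φ₁ x) - φ₁) :=
    (g₁.res L).sub (isGen_of_indSet h₁.1)
  obtain ⟨n, hn⟩ := hδ.ip_int (isGen_of_indSet h₁.1)
  obtain ⟨d, hd⟩ := hδ.exists_deg
  have hK0 : (K.index : ℝ) ≠ 0 := by exact_mod_cast Subgroup.index_ne_zero_of_finite
  have hK1 : (K.index : ℂ) ≠ 0 := by exact_mod_cast Subgroup.index_ne_zero_of_finite
  have key : ∀ z : L, z ∈ K → z ≠ 1 → τ₁ φ₁ z - φ₁ z = (d - n * Nat.card K : ℤ) := by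
    intro z hz h1
    have := sub_eq_of_ip_seqInd (K := K) (Z := K) le_rfl hδ (c := n / K.index)
      (fun φ hφ => ?_) hz h1
    · rw [hd, ← K.card_mul_index] at this
      simp only [Pi.sub_apply] at this
      push_cast at this ⊢
      field_simp at this
      linear_combination -this
    · obtain ⟨e, -, hφe⟩ := exists_deg_of_indSet hφ.1
      have hα := sub_nsmul_mem_zspanOn hφ h₁ (n := e) (by rw [hφe, d₁]; push_cast; ring)
      have h2 : ip ((fun x : L => τ₁ φ₁ x) - φ₁) (φ - e • φ₁) = 0 := by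
        rw [ip_sub_left, ← ip_indFun_right _ _ g₁.isClassFunction, ← he _ hα,
          hτ₁.ip (mem_zspan h₁) (zspanOn_subset _ _ hα), sub_self]
      rw [ip_sub_right, ip_nsmul_right, hn] at h2
      rw [hφe]
      simp only [Complex.natCast_re]
      push_cast
      field_simp
      linarith
  refine ⟨d - n * Nat.card K, fun χ hχ k hk h1 => ?_⟩
  obtain ⟨e, -, hφe⟩ := exists_deg_of_indSet hχ.1
  have hα := sub_nsmul_mem_zspanOn hχ h₁ (n := e) (by rw [hφe, d₁]; push_cast; ring)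
  have h2 := h.res_ind (isClassFunction_of_mem_zspan
    (fun χ hχ => isClassFunction_of_indSet hχ.1) (zspanOn_subset _ _ hα)) hk (Or.inr h1)
    (fun y hy => H8.supp_zspanOn seqInd_subset hα y fun hh => hy hh.1)
  rw [← he _ hα, hτ₁.map_sub (mem_zspan hχ) (znsmul _ (mem_zspan h₁)),
    hτ₁.map_nsmul _ (mem_zspan h₁)] at h2
  simp only [Pi.sub_apply, Pi.smul_apply, nsmul_eq_mul, Pi.mul_apply, Pi.natCast_apply] at h2
  rw [← key k hk h1, hφe]
  push_cast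
  field_simp
  linear_combination h2

theorem sub_ne_top {K : Subgroup G} (h : K < L) : K.subgroupOf L ≠ ⊤ :=
  fun e => h.not_ge (Subgroup.subgroupOf_eq_top.1 e)

theorem sub_ne_bot {K : Subgroup G} (h : K ≤ L) (h1 : K ≠ ⊥) : K.subgroupOf L ≠ ⊥ :=
  fun e => h1 (by rw [← Subgroup.map_subgroupOf_eq_of_le h, e, Subgroup.map_bot])

theorem ti_coherent {K : Subgroup G} [(K.subgroupOf L).Normal] (hlt : K < L) (h1 : K ≠ ⊥)
    (hTI : ∀ g : G, g ∉ L → ∀ k ∈ K, g * k * g⁻¹ ∈ K → k = 1)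
    (hC : ∀ h ∈ K, h ≠ 1 → Subgroup.centralizer ({h} : Set G) ≤ K) :
    (Nat.card {χ : L → ℂ // IsIrrCharacter L χ ∧ ∃ k : L, (k : G) ∈ K ∧ χ k ≠ χ 1} = 1 ∧
      Nat.card K = (K.subgroupOf L).index + 1 ∧
      ∃ p : ℕ, p.Prime ∧ p ∣ Nat.card K ∧ IsElementaryAbelian p K) ∨
    (IsPGroup 2 K ∧ ⁅K, K⁆ ≠ ⊥ ∧ Odd (K.subgroupOf L).index ∧
      (⁅K, K⁆ : Subgroup G).relIndex K ≤ 4 * (K.subgroupOf L).index ^ 2 + 1) ∨
    IsCoherent {χ : L → ℂ | IsIrrCharacter L χ ∧ ∃ k : L, (k : G) ∈ K ∧ χ k ≠ χ 1} {1}ᶜ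
      (fun α => indFun L α) := by
  have hf : FrobMod (K.subgroupOf L) ⊥ := frob_of hC
  have hn := hf.nilp (sub_ne_top hlt)
  have hS : seqInd (K.subgroupOf L) (K.subgroupOf L) ⊥ =
    {χ : L → ℂ | IsIrrCharacter L χ ∧ ∃ k : L, (k : G) ∈ K ∧ χ k ≠ χ 1} := hf.seqInd_eq le_rfl
  have hc := H7.card_subgroupOf_of_le hlt.le
  rcases eq_or_ne (Nat.card (K.subgroupOf L)) ((K.subgroupOf L).index + 1) with he | he
  · obtain ⟨⟨χ, hχ⟩, p, hp, hd, h2, h3⟩ := hf.sharp hn he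
    refine Or.inl ⟨?_, hc ▸ he, p, hp, hc ▸ hd, ⟨⟨fun a b => Subtype.ext ?_⟩⟩, fun a ha => ?_⟩
    · change Nat.card ({χ : L → ℂ | IsIrrCharacter L χ ∧ ∃ k : L, (k : G) ∈ K ∧ χ k ≠ χ 1} :
        Set _) = 1
      rw [← hS, hχ]; simp
    · exact congrArg (fun x : K.subgroupOf L => ((x : L) : G))
        (h2.1.1 ⟨⟨a, hlt.le a.2⟩, a.2⟩ ⟨⟨b, hlt.le b.2⟩, b.2⟩)
    · exact congrArg Subtype.val (h3 ⟨a, hlt.le ha⟩ ha)
  rcases feit_sibley (tik_of hTI) hf hn (sub_ne_bot hlt.le h1) he with h | ⟨a, b, c, d⟩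
  · exact Or.inr (Or.inr (hS ▸ h))
  rw [← H7.subgroupOf_commutator hlt.le hlt.le] at b d
  rw [Subgroup.relIndex_subgroupOf hlt.le] at d
  exact Or.inr (Or.inl ⟨a.of_equiv (Subgroup.subgroupOfEquivOfLe hlt.le),
    fun e => b (by rw [e, Subgroup.bot_subgroupOf]), c, d⟩)

end TI

end
end H3
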