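import Cfsg.Agent.H3.Cls
import Cfsg.Agent.H1.Two3

/-! # The Brauer–Suzuki argument, step by step -/

open Cfsg
open scoped ComplexConjugate commutatorElement
set_option maxSynthPendingDepth 3

namespace H9
open H3 MonoidAlgebra Subgroup
variable {G : Type*} [Group G]

theorem Quat.exists_pair [Fintype G] {P : Subgroup G} {a : G} {n : ℕ} (h : Quat P a (n + 1))
    (hP : H1.IsSylowIn 2 P ⊤) : ∃ α β : G → ℂ, N1 α ∧ N1 β ∧ classInner α (fun _ => 1) = 0 ∧
      classInner β (fun _ => 1) = 0 ∧ ∀ g, ¬ 4 ∣ orderOf g → 1 + α g + β g = 0 := by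
  classical
  set r := a ^ 2 ^ (n + 1) with hr
  have r4 : orderOf r = 4 := by
    rw [hr, orderOf_pow_of_dvd (by positivity) (by rw [h.ord]; exact pow_dvd_pow _ (by omega)),
      h.ord, Nat.pow_div (by omega) (by norm_num)]
    simp
  set C := cen1 r with hC
  have hs : H1.IsSylowIn 2 (zpowers a) C := h.isSylowIn_cen hP
  have aC : a ∈ C := hs.le (mem_zpowers a)
  have hs' : H1.IsSylowIn 2 (zpowers (⟨a, aC⟩ : C)) ⊤ := by
    have := hs.subgroupOf le_rfl
    rw [subgroupOf_self] at this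
    convert this using 1
    ext x
    rw [mem_subgroupOf, mem_zpowers_iff, mem_zpowers_iff]
    exact exists_congr fun k => Subtype.ext_iff
  let I : ℂˣ := Units.mk0 Complex.I Complex.I_ne_zero
  have I4 : I ^ 4 = 1 := Units.ext (by simp [I])
  obtain ⟨l, la, lr⟩ := exists_lin_of_npc (h.npc_cen hP) hs' (ζ := I) (by
    rw [← orderOf_coe, h.ord, show 2 ^ (n + 1 + 2) = 4 * 2 ^ (n + 1) by ring, pow_mul, I4, one_pow])
  obtain ⟨b, hb, hba⟩ := h.ex
  have br : b * r * b⁻¹ = r⁻¹ := h.inv_of_mem hb hba (pow_mem (mem_zpowers a) _)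
  have bC : ∀ x ∈ C, b * x * b⁻¹ ∈ C := fun x hx =>
    H1.conj_mem_of_mem_normalizer (h.le_nrm hb) hx
  -- every element of `C` is conjugate in `C` to `a ^ k` times a regular element
  have dec : ∀ x : C, ∃ (c : C) (k : ℤ), c * pp 2 x * c⁻¹ = ⟨a, aC⟩ ^ k := fun x => by
    obtain ⟨c, -, hc⟩ := exists_conj_mem_sylow hs' (isPElt_pp x) trivial
    obtain ⟨k, hk⟩ := mem_zpowers_iff.1 hc
    exact ⟨c, k, hk.symm⟩
  have ext : ∀ l₁ l₂ : C →* ℂˣ, l₁ ⟨a, aC⟩ = l₂ ⟨a, aC⟩ → (∀ g, IsPRegular 2 g → l₁ g = l₂ g) →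
      l₁ = l₂ := fun l₁ l₂ h1 h2 => by
    ext1 x
    obtain ⟨c, k, e⟩ := dec x
    have e1 := congrArg l₁ e
    have e2 := congrArg l₂ e
    simp only [map_mul, map_inv, map_zpow, mul_inv_cancel_comm] at e1 e2
    rw [← pp_mul_pq (p := 2) x, map_mul, map_mul, e1, e2, h1, h2 _ (isPRegular_pq x)]
  let cb : C →* C := ((MulAut.conj b).toMonoidHom.comp C.subtype).codRestrict C fun x => bC x x.2
  have lb : ∀ x : C, l ⟨b * x * b⁻¹, bC x x.2⟩ = (l x)⁻¹ := fun x => by
    have := ext (l.comp cb) l⁻¹ (by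
      rw [MonoidHom.inv_apply, ← map_inv]
      exact congrArg l (Subtype.ext (h.inv b hb hba))) fun g hg => by
        rw [MonoidHom.inv_apply, lr g hg, inv_one]
        exact lr _ (isPRegular_map hg cb)
    exact DFunLike.congr_fun this x
  have rmem : ∀ x : C, l x ≠ 1 → r ∈ zpowers (x : G) := fun x hx => by
    obtain ⟨c, k, e⟩ := dec x
    have e1 := congrArg l e
    simp only [map_mul, map_inv, map_zpow, mul_inv_cancel_comm, la] at e1
    have e2 : l x = I ^ k := by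
      rw [← pp_mul_pq (p := 2) x, map_mul, e1, lr _ (isPRegular_pq x), mul_one]
    have k4 : ¬ (4 : ℤ) ∣ k := by
      rintro ⟨m, rfl⟩
      exact hx (by rw [e2, zpow_mul, show (4 : ℤ) = (4 : ℕ) from rfl, zpow_natCast, I4, one_zpow])
    have h2 : a ^ 2 ∈ zpowers (a ^ k) := by
      have : ∃ m : ℤ, (2 : ℤ) ^ (n + 3) ∣ k * m - 2 := by
        have cop : ∀ t : ℤ, IsCoprime ((2 : ℤ) ^ (n + 3)) (2 * t + 1) := fun t =>
          IsCoprime.pow_left ⟨-t, 1, by ring⟩
        rcases Int.even_or_odd' k with ⟨t, rfl | rfl⟩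
        · rcases Int.even_or_odd' t with ⟨s, rfl | rfl⟩
          · exact absurd ⟨s, by ring⟩ k4
          · obtain ⟨u, v, huv⟩ := cop s
            exact ⟨v, -2 * u, by linear_combination 2 * huv⟩
        · obtain ⟨u, v, huv⟩ := cop t
          exact ⟨2 * v, -2 * u, by linear_combination 2 * huv⟩
      obtain ⟨m, hm⟩ := this
      refine ⟨m, ?_⟩
      have := (zpow_eq_one_iff_of_orderOf h.ord).2 (by exact_mod_cast hm)
      rw [zpow_sub, mul_inv_eq_one] at this
      simp only [← zpow_mul, this, zpow_ofNat]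
    have h3 : r ∈ zpowers (a ^ k) := by
      rw [hr, pow_succ', pow_mul]; exact pow_mem h2 _
    have e3 : (c : G) * pp 2 (x : G) * (c : G)⁻¹ = a ^ k := by
      rw [pp_coe]; exact congrArg Subtype.val e
    obtain ⟨j, hj⟩ := mem_zpowers_iff.1 h3
    rw [← e3, conj_zpow] at hj
    have h4 : pp 2 (x : G) ^ j = r := by
      have := mem_cen1.1 (inv_mem c.2)
      rw [← this, ← hj]; simp [mul_assoc]
    rw [← h4]
    exact zpow_mem (pp_mem_zpowers _) _
  have TI : ∀ (x : C) (g : G) (hg : g * x * g⁻¹ ∈ C), l x ≠ 1 → l ⟨_, hg⟩ ≠ 1 →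
      g ∈ C ∨ b⁻¹ * g ∈ C := fun x g hg h1 h2 => by
    have m1 := rmem _ h2
    have m2 : g * r * g⁻¹ ∈ zpowers (g * x * g⁻¹) := by
      obtain ⟨k, hk⟩ := mem_zpowers_iff.1 (rmem x h1)
      exact ⟨k, by simp only [conj_zpow, hk]⟩
    rcases eq_or_inv_of_order_four m1 m2 r4 (by rw [orderOf_conj', r4]) with e | e
    · exact .inl (mem_cen1.2 e)
    · refine .inr (mem_cen1.2 ?_)
      calc _ = b⁻¹ * (g * r * g⁻¹) * b := by group
        _ = r := by rw [e, ← br]; group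
  have nb : ∀ g, g ∈ C → b⁻¹ * g ∉ C := fun g h1 h2 => by
    have : b ∈ C := by simpa using mul_mem h1 (inv_mem h2)
    exact h.r_ne_inv (br.symm.trans (mem_cen1.1 this))
  let μ : C → ℂ := (fun x => (l x : ℂ)) - fun _ => 1
  have μg : IsGeneralizedCharacter C μ := (isIrrCharacter_lin l).isGen.sub isGen_one
  have μ0 : ∀ x, μ x ≠ 0 → l x ≠ 1 := fun x hx e => hx (by simp [μ, e])
  have val : ∀ x : C, l x ≠ 1 → indFun C μ x = l x + (l⁻¹ x : ℂˣ) - 2 := fun x hx => by
    have e : ∀ g : G, extendByZero C μ (g * x * g⁻¹) = (if g ∈ C then (l x - 1 : ℂ) else 0) +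
        if b⁻¹ * g ∈ C then ((l⁻¹ x : ℂˣ) - 1 : ℂ) else 0 := fun g => by
      by_cases h1 : g ∈ C
      · rw [if_pos h1, if_neg (nb g h1), ext0_conj_mem μg.isClassFunction h1, ext0_coe]; simp [μ]
      by_cases h2 : b⁻¹ * g ∈ C
      · have m := mul_mem (mul_mem h2 x.2) (inv_mem h2)
        have e : g * x * g⁻¹ = b * (b⁻¹ * g * x * (b⁻¹ * g)⁻¹) * b⁻¹ := by group
        rw [if_neg h1, if_pos h2, e, ext0_of_mem _ (bC _ m), zero_add]
        have e2 : l ⟨_, m⟩ = l x := by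
          have : (⟨_, m⟩ : C) = ⟨_, h2⟩ * x * (⟨_, h2⟩ : C)⁻¹ := rfl
          rw [this, map_mul, map_mul, map_inv, mul_inv_cancel_comm]
        have := lb ⟨_, m⟩
        simp only [e2] at this
        simp only [μ, Pi.sub_apply, this, MonoidHom.inv_apply]
      rw [if_neg h1, if_neg h2, add_zero, ext0_apply]
      split_ifs with h3
      · by_contra h4
        exact (TI x g h3 hx (μ0 _ h4)).elim h1 h2
      · rfl
    have cs : ∀ c : ℂ, ∑ g : G, (if g ∈ C then c else 0) = Nat.card C * c := fun c => by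
      rw [← Finset.sum_filter, Finset.sum_const, Nat.card_eq_fintype_card, Fintype.card_subtype,
        nsmul_eq_mul]
    rw [indFun_apply', Finset.sum_congr rfl fun g _ => e g, Finset.sum_add_distrib, cs,
      Fintype.sum_equiv (Equiv.mulLeft b⁻¹)
        (fun g => if b⁻¹ * g ∈ C then ((l⁻¹ x : ℂˣ) - 1 : ℂ) else 0)
        (fun g => if g ∈ C then ((l⁻¹ x : ℂˣ) - 1 : ℂ) else 0) fun _ => rfl, cs]
    have := card_ne_zero C
    field_simp
    ring
  have I1 : I ≠ 1 := fun e => by simpa [I, Complex.ext_iff] using congrArg Units.val e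
  have I2 : I⁻¹ ≠ I := fun e => by
    have := congrArg Units.val e
    norm_num [I, Complex.ext_iff] at this
  have l1 : l ≠ 1 := fun e => I1 (by rw [← la, e]; rfl)
  have l2 : l⁻¹ ≠ l := fun e => I2 (by rw [← la, ← MonoidHom.inv_apply, e])
  have l3 : l⁻¹ ≠ 1 := fun e => I1 (inv_eq_one.1 (by
    rw [← la, ← MonoidHom.inv_apply, e]; rfl))
  have i1 := inner_lin l l
  have i2 := inner_lin l 1
  have i3 := inner_lin 1 l
  have i4 := inner_lin l⁻¹ l
  have i5 := inner_lin l⁻¹ 1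
  simp only [l1, l1.symm, l2, l3, if_true, if_false, MonoidHom.one_apply, Units.val_one]
    at i1 i2 i3 i4 i5
  have θg := μg.ind.neg
  have nrm3 : classInner (-indFun C μ) (-indFun C μ) = 3 := by
    rw [H3.inner_neg_left, H3.inner_neg_right, neg_neg,
      inner_indFun_right _ _ (isClassFunction_indFun _ _)]
    have : classInner (fun x : C => indFun C μ x) μ = classInner
        ((fun x => (l x : ℂ)) + (fun x => ((l⁻¹ x : ℂˣ) : ℂ)) - (2 : ℂ) • fun _ => 1) μ := by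
      unfold classInner
      congr 1
      refine Finset.sum_congr rfl fun x _ => ?_
      by_cases hx : μ x = 0
      · simp [hx]
      · simp [val x (μ0 x hx)]
    rw [this]
    simp only [μ, H3.inner_sub_left, H3.inner_sub_right, H3.inner_add_left, H3.inner_smul_left,
      i1, i2, i3, i4, i5]
    rw [inner_one_one]
    norm_num
  have in1 : classInner (-indFun C μ) (fun _ => 1) = 1 := by
    rw [H3.inner_neg_left, inner_indFun_left _ _ (isClassFunction_const 1), H3.inner_sub_left, i2,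
      inner_one_one]; simp
  have van : ∀ g : G, ¬ 4 ∣ orderOf g → (-indFun C μ) g = 0 := fun g hg => by
    rw [Pi.neg_apply, indFun_eq_zero_of_support C μ fun x hx => ?_, neg_zero]
    by_contra h0
    have := orderOf_dvd_of_mem_zpowers (rmem _ (μ0 _ h0))
    rw [r4, orderOf_conj'] at this
    exact hg this
  obtain ⟨α, β, hα, hβ, -, o2, o3, e⟩ := exists_n1_one_add_two θg nrm3 in1
  exact ⟨α, β, hα, hβ, o2, o3, fun g hg => by have := van g hg; rwa [e] at this⟩

end H9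

namespace H3
open H3 H7 H1B Subgroup
variable {G : Type*} [Group G] [Finite G] {S D : Subgroup G} {a w g y : G} {n : ℕ}

theorem quat_of_mx (h : MX S a 1 n) (k : ∀ b ∈ S, b ∉ zpowers a → b * b = a ^ 2 ^ (n + 1)) : H9.Quat S a n :=
  ⟨h.mem, h.orda, h.card, h.ex, fun b c d => (h.inv b c d).trans (mul_one _), fun b c d => (sq b).trans (k b c d)⟩

theorem mx_inf_cen (h : MX S a 1 (n + 1)) : S ⊓ cen (zpowers (a ^ 2)) = zpowers a := by
  refine le_antisymm (fun b ⟨c, d⟩ => of_not_not fun e => ?_)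
    (le_inf h.le (le_cen_iff.2 fun x c y d => (zp_comm c (zp_pow_le a 2 d)).eq))
  exact h.not_comm_u c e (mem_cen.1 d _ (zp_pow_le_pow a (dvd_pow_self 2 n.succ_ne_zero) (mem_zpowers _)))

theorem mx_syl_cen (h : MX S a 1 (n + 1)) (s : IsSylowIn 2 S ⊤) :
    IsSylowIn 2 (zpowers a) (cen (zpowers (a ^ 2))) := by
  have := syl_inf (s.mono h.le_nrmB le_top) (cen_le_nrm _) (nrm_cen h.le_nrmB)
  rwa [mx_inf_cen h] at this

theorem mx_le_zpowers (h : MX S a 1 (n + 1)) (s : IsSylowIn 2 S ⊤) (c : y ∈ cen (zpowers (a ^ 2)))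
    (d : ord (zpowers (a ^ 2)) ∣ orderOf y) : zpowers (a ^ 2) ≤ zpowers y := by
  obtain ⟨R, r⟩ := H2.exists_isSylowIn 2 (zpowers y)
  obtain ⟨x, x1, x2⟩ := (mx_syl_cen h s).exists_cj_le r.isPGroup (r.le.trans (zpowers_le.2 c))
  obtain ⟨T, t1, t2⟩ : ∃ T ≤ R, ord T = ord (zpowers (a ^ 2)) := by
    obtain ⟨k, hk⟩ := r.isPGroup.exists_card_eq
    rw [Nat.card_zpowers, h.sq_ord] at d ⊢
    have : 2 ^ (n + 1 + 1) ∣ ord R := (Nat.Coprime.pow_left _ (coprime_iff_not_dvd.2 r.not_dvd).symm).dvd_of_dvd_mul_left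
      (by rwa [relIndex_mul_card' r.le, Nat.card_zpowers])
    obtain ⟨T, t⟩ := Sylow.exists_subgroup_card_pow_prime 2 this
    exact ⟨T.map R.subtype, map_subtype_le T, (H7.card_map_subtype _ _).trans t⟩
  have := eq_of_cyc inferInstance ((cj_mono x t1).trans x2) (zp_pow_le a 2) ((card_cj _ _).trans t2)
  rw [cj_eq_iff, cj_of_mem_nrm (cen_le_nrm _ (inv_mem x1))] at this
  exact this ▸ t1.trans r.le

/-- the normal subgroup `O(G)⟨z⟩` -/
theorem bs_normal (u : H9.UI (⊤ : Subgroup G)) {z : G} (hz : z ^ 2 = 1) :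
    (pPrimeCore 2 G ⊔ zpowers z).Normal := by
  refine normal_iff_top_le_nrm.2 (le_nrm_of_comm_le (comm_sup_le (N := pPrimeCore 2 G) (le_nrm_of_normal _ _)
    (le_nrm_of_normal _ _) (comm_le_left (le_nrm_of_normal _ _)) (comm_zpowers_le (le_nrm_of_normal ⊤ _ trivial)
      fun c _ => H9.brauer_suzuki u hz c) |>.trans le_sup_left))

theorem bs_sq {z x : G} (hz : z ^ 2 = 1) (a : x ∈ pPrimeCore 2 G ⊔ zpowers z) (b : H9.IsPElt 2 x) : x ^ 2 = 1 := by
  refine H9.eq_one_of_isPElt_of_isPRegular (b.pow 2) (H9.isPRegular_of_mem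
    (coprime_iff_not_dvd.1 H1.coprime_pPrimeCore) ((QuotientGroup.eq_one_iff _).1 ?_))
  obtain ⟨o, o1, _, ⟨k, rfl⟩, rfl⟩ := (mem_sup_nrm' (le_nrm_of_normal _ _)).1 a
  rw [QuotientGroup.mk_pow, QuotientGroup.mk_mul, (QuotientGroup.eq_one_iff _).2 o1, one_mul, ← QuotientGroup.mk_pow,
    ← zpow_natCast, ← zpow_mul, mul_comm, zpow_mul, zpow_natCast, hz, one_zpow, QuotientGroup.mk_one]

end H3
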