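import Mathlib

/-! # Abstract Shintani descent -/

namespace H3.Shin
variable {X : Type*} [Group X] (σ : MulAut X) (a : X) (d e : ℕ)

theorem key : ((List.range d).map (fun i => (σ ^ i) (a * (σ a)⁻¹))).prod = a * ((σ ^ d) a)⁻¹ := by
  induction d with
  | zero => simp
  | succ d ih => rw [List.range_succ, List.map_append, List.prod_append, ih, pow_succ]; simp

theorem cm : (σ ^ e) (σ a) = σ ((σ ^ e) a) := by
  rw [← MulAut.mul_apply, ← MulAut.mul_apply, ← pow_succ, ← pow_succ']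

theorem fx : (σ ^ e) (a * (σ a)⁻¹) = a * (σ a)⁻¹ ↔ σ (((σ ^ e) a)⁻¹ * a) = ((σ ^ e) a)⁻¹ * a := by
  rw [map_mul, map_inv, map_mul, map_inv, cm]
  constructor <;> intro h
  · calc _ = ((σ ^ e) a)⁻¹ * ((σ ^ e) a * (σ ((σ ^ e) a))⁻¹) * σ a := by group
      _ = _ := by rw [h]; group
  · rw [inv_mul_eq_iff_eq_mul] at h; rw [h]; group

variable {σ a} in
theorem fix_pow (h : σ a = a) (n : ℕ) : (σ ^ n) a = a := by
  induction n with
  | zero => rfl
  | succ n ih => rw [pow_succ, MulAut.mul_apply, h, ih]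

end H3.Shin
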