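import Cfsg.Agent.H3.Wall6

/-! # Classes of elements of prime order in projective groups -/

namespace H3.Wall
open H4 Module H3.RCF Polynomial UniqueFactorizationMonoid Au
variable {F : Type*} [Field F] {P Q : F[X]} {n r : ℕ}

theorem cp_smul {ι : Type*} [Fintype ι] [DecidableEq ι] (M : Matrix ι ι F) {c : F} (h : c ≠ 0) : (c • M).charpoly = M.charpoly.scaleRoots c := by
  rw [← sub_eq_zero, ← comp_C_mul_X_eq_zero_iff (mem_nonZeroDivisors_of_ne_zero h), sub_comp, sub_eq_zero, comp,  comp,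
    scaleRoots_eval₂_mul, eval₂_C_X, Matrix.charpoly_natDegree_eq_dim, Matrix.charpoly, Matrix.charpoly, ← Matrix.det_smul]
  refine ((compRingHom (C c * X)).map_det (c • M).charmatrix).trans (congrArg _ (Matrix.ext fun i j => ?_))
  by_cases e : i = j <;> simp [e, mul_sub]

theorem sr_pow (h : r ≠ 0) (a c : F) : (X ^ r - C a).scaleRoots c = X ^ r - C (a * c ^ r) := by
  ext i
  rw [coeff_scaleRoots, natDegree_X_pow_sub_C]
  by_cases e : i = r
  · simp [e, coeff_C, h, -map_mul]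
  · by_cases z : i = 0 <;> simp [coeff_C, coeff_X_pow, z, e, h.symm, -map_mul]

theorem card_div {Y : Finset F[X]} {h : ℕ} (h0 : 0 < h) (y1 : ∀ x, x ∈ Y ↔ (Irreducible x ∧ x.Monic) ∧ x ∣ Q) (y2 : ∀ x ∈ Y, x.natDegree = h) (n : ℕ) :
    Nat.card {P : F[X] // P.Monic ∧ P.natDegree = n ∧ ∃ k, P ∣ Q ^ k} = if h ∣ n then Y.card.multichoose (n / h) else 0 := by
  classical
  have dg : ∀ m : Multiset Y, (m.map Subtype.val).prod.Monic ∧ (m.map Subtype.val).prod.natDegree = h * m.card ∧ (m.map Subtype.val).prod ∣ Q ^ m.card := fun m => by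
    induction m using Multiset.induction with
    | empty => simp
    | cons y m ih =>
      have := (y1 y).1 y.2
      rw [Multiset.map_cons, Multiset.prod_cons, this.1.2.natDegree_mul ih.1, y2 y y.2, ih.2.1, Multiset.card_cons, pow_succ']
      exact ⟨this.1.2.mul ih.1, by ring, mul_dvd_mul this.2 ih.2.2⟩
  rw [← Nat.card_eq_of_bijective (fun m : {m : Multiset Y // h * m.card = n} => (⟨_, (dg m).1, (dg m).2.1.trans m.2, _, (dg m).2.2⟩ :
    {P : F[X] // P.Monic ∧ P.natDegree = n ∧ ∃ k, P ∣ Q ^ k})) ⟨fun m m' e => ?_, fun ⟨P, a, b, k, d⟩ => ?_⟩]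
  · split_ifs with c
    · obtain ⟨j, rfl⟩ := c
      rw [Nat.mul_div_cancel_left _ h0, ← Fintype.card_coe Y, ← Sym.card_sym_eq_multichoose, ← Nat.card_eq_fintype_card]
      exact Nat.card_congr (Equiv.subtypeEquivRight fun _ => mul_right_inj' h0.ne')
    · haveI : IsEmpty {m : Multiset Y // h * m.card = n} := ⟨fun m => c ⟨_, m.2.symm⟩⟩
      exact Nat.card_of_isEmpty
  · have t : ∀ m : Multiset Y, ∀ x ∈ m.map Subtype.val, Irreducible x ∧ x.Monic := fun m x b => by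
      obtain ⟨x, -, rfl⟩ := Multiset.mem_map.1 b
      exact ((y1 x).1 x.2).1
    exact Subtype.ext (Multiset.map_injective Subtype.val_injective (ms_eq (t _) (t _) (congrArg Subtype.val e)))
  · obtain ⟨m, e⟩ : ∃ m : Multiset Y, m.map (↑) = normalizedFactors P := CanLift.prf _ fun x k => by
      have := (Polynomial.mem_normalizedFactors_iff a.ne_zero).1 k
      exact (y1 x).2 ⟨⟨this.1, this.2.1⟩, this.1.prime.dvd_of_dvd_pow (this.2.2.trans d)⟩
    have : (m.map Subtype.val).prod = P := by rw [e, prod_normalizedFactors_eq a.ne_zero, a.normalize_eq_self]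
    exact ⟨⟨m, by rw [← (dg m).2.1, this, b]⟩, Subtype.ext this⟩

theorem lam_eq {a b : F} {k l : ℕ} (h : P.natDegree ≠ 0) (x : P ∣ (X ^ r - C a) ^ k) (y : P ∣ (X ^ r - C b) ^ l) : a = b := by_contra fun n =>
  h (natDegree_eq_zero_of_isUnit ((IsCoprime.pow (⟨C (b - a)⁻¹, -C (b - a)⁻¹, by
    rw [← C_1, ← inv_mul_cancel₀ (sub_ne_zero.2 (Ne.symm n))]; simp only [map_mul, map_sub]; ring⟩)).isUnit_of_dvd' x y))

theorem fix_sr (hr : r.Prime) {z a : F} (z1 : z ≠ 1) (zr : z ^ r = 1) (m : P.Monic) (a0 : a ≠ 0) {k : ℕ} (d : P ∣ (X ^ r - C a) ^ k)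
    (e : P.scaleRoots z = P) : r ∣ P.natDegree ∧ P = (X ^ r - C a) ^ (P.natDegree / r) := by
  haveI := Fact.mk hr
  have o := orderOf_eq_prime zr z1
  have c : ∀ i, P.coeff i ≠ 0 → r ∣ P.natDegree - i := fun i h => o ▸ orderOf_dvd_of_pow_eq_one
    (mul_left_cancel₀ h (by rw [← coeff_scaleRoots, e, mul_one]))
  have c0 := c 0 fun h => by
    obtain ⟨R, d⟩ := d
    simpa [h, a0, coeff_zero_eq_eval_zero, hr.ne_zero, ← coeff_zero_eq_eval_zero P] using congrArg (coeff · 0) d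
  have ex : expand F r (contract r P) = P := Polynomial.ext fun i => by
    rw [coeff_expand hr.pos]
    split_ifs with h
    · rw [coeff_contract hr.ne_zero, Nat.div_mul_cancel h]
    · exact (by_contra fun k => h ((Nat.dvd_sub_iff_right (le_natDegree_of_ne_zero k) c0).1 (c i k))).symm
  generalize contract r P = R at ex
  subst ex
  have m' := (monic_expand_iff hr.pos).1 m
  have : R ∣ (X - C a) ^ k := by
    obtain ⟨T, d⟩ := d
    exact ⟨contract r T, by rw [mul_comm, ← contract_mul_expand hr.ne_zero, mul_comm, ← d, ← contract_expand r hr.ne_zero (f := _ ^ k)]; simp⟩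
  obtain ⟨j, -, h⟩ := (dvd_prime_pow (prime_X_sub_C a) k).1 this
  obtain rfl := eq_of_monic_of_associated m' ((monic_X_sub_C a).pow j) h
  simp [natDegree_expand, natDegree_pow, hr.pos]

open Classical in
theorem card_lam (hr : r.Prime) {ζ a : F} (hζ : IsPrimitiveRoot ζ r) (a0 : a ≠ 0) (n : ℕ) :
    Nat.card {P : F[X] // P.Monic ∧ P.natDegree = n ∧ ∃ k, P ∣ (X ^ r - C a) ^ k} =
      if ∃ c, c ^ r = a then (n + r - 1).choose (r - 1) else if r ∣ n then 1 else 0 := by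
  by_cases h : ∃ c, c ^ r = a
  · obtain ⟨c, e⟩ := h
    have c0 : c ≠ 0 := by rintro rfl; exact a0 (by simp [← e, hr.ne_zero])
    rw [if_pos ⟨c, e⟩, card_div (Y := (Finset.range r).image fun i => X - C (ζ ^ i * c)) one_pos (fun x => ?_) (by simp [-map_mul]), if_pos (one_dvd n),
      Finset.card_image_of_injOn fun i a j b e => hζ.pow_inj (by simpa using a) (by simpa using b) (by simpa [c0, -map_mul] using e), Finset.card_range,
      Nat.div_one, Nat.multichoose_eq, add_comm, Nat.choose_symm_of_eq_add (b := r - 1) (by have := hr.pos; omega)]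
    rw [X_pow_sub_C_eq_prod hζ hr.pos e, Finset.mem_image]
    refine ⟨?_, fun ⟨i, d⟩ => ?_⟩
    · rintro ⟨i, b, rfl⟩
      exact ⟨⟨irreducible_X_sub_C _, monic_X_sub_C _⟩, Finset.dvd_prod_of_mem _ b⟩
    · obtain ⟨j, b, d⟩ := (i.1.prime.dvd_finset_prod_iff _).1 d
      exact ⟨j, b, (eq_of_monic_of_associated i.2 (monic_X_sub_C _) (i.1.associated_of_dvd (irreducible_X_sub_C _) d)).symm⟩
  · have i := X_pow_sub_C_irreducible_of_prime hr (not_exists.1 h)
    have m := monic_X_pow_sub_C a hr.ne_zero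
    rw [if_neg h, card_div (Y := {X ^ r - C a}) hr.pos (fun x => Finset.mem_singleton.trans ⟨by rintro rfl; exact ⟨⟨i, m⟩, dvd_rfl⟩,
      fun k => eq_of_monic_of_associated k.1.2 m (k.1.1.associated_of_dvd i k.2)⟩) (by simp)]
    simp

theorem ir_lam (hr : r.Prime) {ζ a : F} (hζ : IsPrimitiveRoot ζ r) {x : F[X]} (i : Irreducible x) (m : x.Monic) (d : x ∣ X ^ r - C a) :
    (∃ c, c ^ r = a ∧ x = X - C c) ∨ x = X ^ r - C a := by
  by_cases h : ∃ c, c ^ r = a
  · obtain ⟨c, e⟩ := h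
    obtain ⟨j, b, d⟩ := (i.prime.dvd_finset_prod_iff _).1 (X_pow_sub_C_eq_prod hζ hr.pos e ▸ d)
    exact .inl ⟨_, by rw [mul_pow, pow_right_comm, hζ.pow_eq_one, one_pow, one_mul, e],
      eq_of_monic_of_associated m (monic_X_sub_C _) (i.associated_of_dvd (irreducible_X_sub_C _) d)⟩
  · exact .inr (eq_of_monic_of_associated m (monic_X_pow_sub_C a hr.ne_zero) (i.associated_of_dvd (X_pow_sub_C_irreducible_of_prime hr (not_exists.1 h)) d))

theorem ae_sc {g : GL (Fin n) F} {a : Fˣ} : aeval (g.1.toLin' : End F _) (X ^ r - C a.1) = 0 ↔ g ^ r = sc a := by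
  rw [aeval_lin, map_sub, aeval_X_pow, aeval_C, ← Units.val_pow_eq_pow_val, Algebra.algebraMap_eq_smul_one, ← sc_coe, LinearEquiv.map_eq_zero_iff,
    sub_eq_zero, Units.val_inj]

theorem root_gl (hr : r ≠ 0) (a : Fˣ) (m : P.Monic) (d : P.natDegree = n) {k : ℕ} (h : P ∣ (X ^ r - C a.1) ^ k) :
    ∃ g : GL (Fin n) F, g.1.charpoly = P ∧ g ^ r = sc a := by
  obtain ⟨A, s, x, b, e⟩ := exists_ss_mat m d
  have := (x.zero _).2 fun x b => (e x b).1.prime.dvd_of_dvd_pow ((e x b).2.trans h)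
  obtain ⟨g, rfl⟩ : IsUnit A := (isUnit_pow_iff hr).1 (by
    rw [aeval_lin, map_sub, aeval_X_pow, aeval_C, LinearEquiv.map_eq_zero_iff, sub_eq_zero] at this
    exact this ▸ a.isUnit.map _)
  exact ⟨g, b, ae_sc.1 this⟩

theorem card_pg [Finite F] {G : Type*} [Group G] [Finite G] (φ : G →* GL (Fin n) F) (inj : Function.Injective φ) (A : Subgroup Fˣ)
    (hr : r.Prime) (hA : r ∣ Nat.card A) (hn : n ≠ 0) (hZ : ∀ g, g ∈ Subgroup.center G ↔ ∃ a ∈ A, φ g = sc a) (hs : ∀ a ∈ A, ∃ g, φ g = sc a)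
    (h1 : ∀ a ∈ A, ∀ c : F, c ^ r = a → ∃ b ∈ A, b ^ r = a) (h2 : ∀ g h, IsConj (φ g) (φ h) → IsConj g h)
    (h3 : ∀ a ∈ A, ∀ P : F[X], P.Monic → P.natDegree = n → ∀ k, P ∣ (X ^ r - C a.1) ^ k → ∃ g, (φ g).1.charpoly = P ∧ φ g ^ r = sc a) :
    Nat.card {C // ∃ g : G ⧸ Subgroup.center G, ConjClasses.mk g = C ∧ orderOf g = r} =
      ((n + r - 1).choose (r - 1) - r - if r ∣ n then 1 else 0) / r + r * if r ∣ n then 1 else 0 := by
  classical
  haveI := Fact.mk hr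
  haveI : NeZero n := ⟨hn⟩
  haveI := Fintype.ofFinite A
  obtain ⟨ζ, hζ⟩ := exists_prime_orderOf_dvd_card' r hA
  have hζ : IsPrimitiveRoot ζ.1.1 r := by rw [← hζ, ← Subgroup.orderOf_coe, ← orderOf_units]; exact .orderOf _
  have r0 : (r : F) ≠ 0 := hζ.neZero'.out
  let Ω := {P : F[X] // P.Monic ∧ P.natDegree = n ∧ ∃ (a : A) (k : ℕ), P ∣ (X ^ r - C a.1.1) ^ k}
  have sd : ∀ {P : F[X]} {a : A} {k} (c : A), P ∣ (X ^ r - C a.1.1) ^ k → P.scaleRoots c.1 ∣ (X ^ r - C (a * c ^ r).1.1) ^ k := fun c d => by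
    have := scaleRoots_dvd _ _ (r := c.1.1) d
    rwa [pow_scaleRoots_of_isReduced, sr_pow hr.ne_zero] at this
  letI : MulAction A Ω :=
    { smul := fun c P => ⟨P.1.scaleRoots c.1, (monic_scaleRoots_iff _).2 P.2.1, (natDegree_scaleRoots _ _).trans P.2.2.1,
        P.2.2.2.elim fun a h => h.elim fun k d => ⟨_, k, sd c d⟩⟩
      one_smul := fun P => Subtype.ext (scaleRoots_one _)
      mul_smul := fun a b P => Subtype.ext (show scaleRoots _ (a.1.1 * b.1.1) = _ by rw [mul_comm, scaleRoots_mul]; rfl) }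
  have ae : ∀ (g : GL (Fin n) F) (a : Fˣ), g ^ r = sc a → aeval (g.1.toLin' : End F _) (X ^ r - C a.1) = 0 := fun g a => ae_sc.2
  have sq : ∀ a : Fˣ, Squarefree (X ^ r - C a.1 : F[X]) := fun a => (separable_X_pow_sub_C _ r0 a.ne_zero).squarefree
  have pw : ∀ g : G, (g : G ⧸ Subgroup.center G) ^ r = 1 → ∃ a ∈ A, φ g ^ r = sc a := fun g e => by
    rwa [← QuotientGroup.mk_pow, QuotientGroup.eq_one_iff, hZ, map_pow] at e
  have e1 : Nat.card {C // ∃ g : G ⧸ Subgroup.center G, ConjClasses.mk g = C ∧ g ^ r = 1} = Nat.card (MulAction.orbitRel.Quotient A Ω) := by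
    refine card_cls _ (fun x y => ∃ (g : G) (P : Ω), g = x ∧ (φ g).1.charpoly = P.1 ∧ ⟦P⟧ = y) ?_ ?_ ?_
    · rintro ⟨P, a, b, c, k, d⟩
      obtain ⟨g, e, e'⟩ := h3 c c.2 P a b k d
      exact ⟨g, by rw [← QuotientGroup.mk_pow, QuotientGroup.eq_one_iff, hZ, map_pow]; exact ⟨c, c.2, e'⟩, g, _, rfl, e, rfl⟩
    · rintro ⟨g⟩ e
      obtain ⟨a, b, e⟩ := pw g e
      obtain ⟨m, x, -, z⟩ := exists_ss (sq a) (ae _ a e)
      exact ⟨_, g, ⟨_, (φ g).1.charpoly_monic, by simp, ⟨a, b⟩, m.card, by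
        rw [← Matrix.charpoly_toLin', z, ← Multiset.prod_replicate, ← Multiset.map_const', ← m.map_id, Multiset.map_map]
        exact Multiset.prod_dvd_prod_of_dvd _ _ ((x.zero _).1 (ae _ a e))⟩, rfl, rfl, rfl⟩
    · rintro _ _ _ _ a b ⟨g, P, rfl, c, rfl⟩ ⟨h, Q, rfl, d, rfl⟩
      rw [Quotient.eq, MulAction.orbitRel_apply]
      refine ⟨fun k => ?_, fun ⟨z, k⟩ => ?_⟩
      · obtain ⟨⟨x⟩, k⟩ := isConj_iff.1 k.symm
        obtain ⟨z, z1, k⟩ := (hZ _).1 (QuotientGroup.eq.1 (show ((x * h * x⁻¹ : G) : G ⧸ Subgroup.center G) = g from k))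
        refine ⟨⟨z, z1⟩, Subtype.ext ?_⟩
        rw [map_mul, map_inv, inv_mul_eq_iff_eq_mul, ← sc_comm] at k
        rw [← c, k, sc_mul_coe, cp_smul _ z.ne_zero, map_mul, map_mul, map_inv, Units.val_mul, Units.val_mul, Matrix.coe_units_inv,
          Matrix.charpoly_units_conj, d]; rfl
      · obtain ⟨s, e⟩ := hs z z.2
        obtain ⟨a, -, ha⟩ := pw g a
        obtain ⟨b, -, hb⟩ := pw h b
        have : ((s * h : G) : G ⧸ Subgroup.center G) = h := by
          rw [QuotientGroup.mk_mul, (QuotientGroup.eq_one_iff s).2 ((hZ s).2 ⟨z, z.2, e⟩), one_mul]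
        rw [← this]
        refine (QuotientGroup.mk' _).map_isConj (h2 _ _ (isConj_gl.2 (sim_of_cp (sq a) (sq (z.1 ^ r * b)) (ae _ _ ha) (ae _ _ ?_) ?_)))
        · rw [map_mul, e, Commute.mul_pow (sc_comm _ _), hb, map_mul, map_pow]
        · rw [Matrix.charpoly_toLin', Matrix.charpoly_toLin', map_mul, e, sc_mul_coe, cp_smul _ z.1.ne_zero, c, d, ← k]; rfl
  have fi : ∀ S : F[X] → Prop, Finite {P : F[X] // P.Monic ∧ P.natDegree = n ∧ S P} := fun S =>
    haveI : Finite {P : F[X] // P.Monic ∧ P.natDegree = n} := Nat.finite_of_card_ne_zero (by rw [card_monic]; exact pow_ne_zero _ Nat.card_pos.ne')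
    .of_injective _ (Subtype.impEmbedding _ (fun P : F[X] => P.Monic ∧ P.natDegree = n) fun _ h => ⟨h.1, h.2.1⟩).injective
  have e2 : Nat.card Ω = ∑ a : A, if a ∈ (powMonoidHom r : A →* A).range then (n + r - 1).choose (r - 1) else if r ∣ n then 1 else 0 := by
    haveI : ∀ a : A, Finite {P : F[X] // P.Monic ∧ P.natDegree = n ∧ ∃ k, P ∣ (X ^ r - C a.1.1) ^ k} := fun a => fi _
    rw [← Nat.card_eq_of_bijective (fun x : Σ a : A, {P : F[X] // P.Monic ∧ P.natDegree = n ∧ ∃ k, P ∣ (X ^ r - C a.1.1) ^ k} =>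
      (⟨x.2.1, x.2.2.1, x.2.2.2.1, x.1, x.2.2.2.2⟩ : Ω)) ⟨?_, fun ⟨P, a, b, c, d⟩ => ⟨⟨c, P, a, b, d⟩, rfl⟩⟩, Nat.card_sigma]
    · refine Finset.sum_congr rfl fun a _ => (card_lam hr hζ a.1.ne_zero n).trans (if_congr ⟨fun ⟨c, e⟩ => ?_, ?_⟩ rfl rfl)
      · obtain ⟨b, x, y⟩ := h1 a a.2 c e
        exact ⟨⟨b, x⟩, Subtype.ext y⟩
      · rintro ⟨b, rfl⟩
        exact ⟨b.1.1, rfl⟩
    · rintro ⟨a, P, _, x, k, d⟩ ⟨b, Q, _, _, l, d'⟩ e
      obtain rfl : P = Q := congrArg Subtype.val e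
      obtain rfl : a = b := Subtype.ext (Units.ext (lam_eq (x ▸ hn) d d'))
      rfl
  have e3 : ∀ z : A, Nat.card (MulAction.fixedBy Ω z) = if z = 1 then Nat.card Ω else if z ∈ (powMonoidHom r : A →* A).ker then
      Nat.card A * if r ∣ n then 1 else 0 else 0 := fun z => by
    by_cases z1 : z = 1
    · simp [z1]
    have z2 : z.1.1 ≠ 1 := fun e => z1 (Subtype.ext (Units.ext e))
    have t : ∀ P : MulAction.fixedBy Ω z, z ^ r = 1 ∧ r ∣ n ∧ ∃ a : A, P.1.1 = (X ^ r - C a.1.1) ^ (n / r) := fun ⟨⟨P, a, b, c, k, d⟩, e⟩ => by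
      replace e : P.scaleRoots z.1 = P := congrArg Subtype.val e
      have : z ^ r = 1 := mul_left_cancel (a := c) (Subtype.ext (Units.ext ((lam_eq (b ▸ hn) (e ▸ sd z d) d).trans (by simp))))
      have h := fix_sr hr z2 (congrArg (·.1.1) this) a c.1.ne_zero d e
      exact ⟨this, b ▸ h.1, c, b ▸ h.2⟩
    rw [if_neg z1]
    split_ifs with x y
    · obtain ⟨j, rfl⟩ := y
      rw [mul_one]
      have j0 := right_ne_zero_of_mul hn
      refine (Nat.card_eq_of_bijective (fun a => ⟨⟨(X ^ r - C a.1.1) ^ j, (monic_X_pow_sub_C _ hr.ne_zero).pow j, by simp [natDegree_pow, mul_comm],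
        a, j, dvd_rfl⟩, Subtype.ext (show scaleRoots _ _ = _ by
          rw [pow_scaleRoots_of_isReduced, sr_pow hr.ne_zero, show z.1.1 ^ r = 1 from congrArg (·.1.1) x, mul_one])⟩) ⟨fun a b e => ?_, fun P => ?_⟩).symm
      · exact Subtype.ext (Units.ext (lam_eq (P := (X ^ r - C a.1.1) ^ j) (by simp [natDegree_pow, j0, hr.ne_zero]) dvd_rfl (congrArg (·.1.1) e).dvd))
      · obtain ⟨a, e⟩ := (t P).2.2
        exact ⟨a, Subtype.ext (Subtype.ext (by rw [e, Nat.mul_div_cancel_left _ hr.pos]))⟩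
    · exact Nat.card_eq_zero.2 (.inl ⟨fun P => y (t P).2.1⟩)
    · exact Nat.card_eq_zero.2 (.inl ⟨fun P => x (t P).1⟩)
  haveI : Finite Ω := fi _
  haveI := Fintype.ofFinite Ω
  have B := MulAction.sum_card_fixedBy_eq_card_orbits_mul_card_group A Ω
  simp only [← Nat.card_eq_fintype_card, e3] at B
  have k1 := IsCyclic.card_powMonoidHom_range A r
  have k2 := IsCyclic.card_powMonoidHom_ker A r
  rw [Nat.gcd_eq_right hA, Nat.card_eq_fintype_card, Fintype.card_subtype] at k1 k2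
  rw [Finset.sum_ite, Finset.sum_const, Finset.sum_const, Finset.filter_not, Finset.card_univ_diff, k1, ← Nat.card_eq_fintype_card] at e2
  rw [← Finset.add_sum_erase _ _ (Finset.mem_univ 1), if_pos rfl, Finset.sum_congr rfl fun z h => if_neg (Finset.ne_of_mem_erase h),
    ← Finset.sum_filter, Finset.filter_erase, Finset.sum_const, Finset.card_erase_of_mem (by simp), k2, e2] at B
  rw [card_ord hr, e1]
  obtain ⟨b, hb⟩ := hA
  have b0 : 0 < b := Nat.pos_of_mul_pos_left (hb ▸ Nat.card_pos)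
  have c2 : 2 ≤ (n + r - 1).choose (r - 1) := by
    obtain ⟨n, rfl⟩ := Nat.exists_eq_add_one_of_ne_zero hn
    obtain ⟨r, rfl⟩ := Nat.exists_eq_add_of_le' hr.two_le
    rw [show n + 1 + (r + 2) - 1 = n + r + 1 + 1 by omega, show r + 2 - 1 = r + 1 from rfl, Nat.choose_succ_succ']
    have := Nat.choose_pos (show r ≤ n + r + 1 by omega)
    have := Nat.choose_pos (show r + 1 ≤ n + r + 1 by omega)
    omega
  rw [hb, Nat.mul_div_cancel_left _ hr.pos] at B
  generalize (n + r - 1).choose (r - 1) = c at B c2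
  generalize Nat.card (MulAction.orbitRel.Quotient A Ω) = N at B
  have d1 : (if r ∣ n then 1 else 0) ≤ 1 := by split_ifs <;> simp
  generalize (if r ∣ n then 1 else 0) = d at B d1
  obtain ⟨r, rfl⟩ := Nat.exists_eq_add_one_of_ne_zero hr.ne_zero
  have : c + (r + 1) * (r + 1) * d = N * (r + 1) + d := Nat.eq_of_mul_eq_mul_left b0 (by
    rw [show (r + 1) * b - b = r * b by rw [add_mul]; simp] at B
    simp only [smul_eq_mul, Nat.add_sub_cancel] at B
    linear_combination B)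
  obtain ⟨N, rfl⟩ := Nat.exists_eq_add_of_lt (Nat.lt_of_mul_lt_mul_right (show (r + 1) * d * (r + 1) < N * (r + 1) by
    rw [mul_right_comm]; omega))
  rw [show c = (r + 1) * N + d + (r + 1) from Nat.add_right_cancel (this.trans (by ring)), Nat.add_sub_cancel, Nat.add_sub_cancel, Nat.add_sub_cancel,
    Nat.mul_div_cancel_left _ r.succ_pos, add_comm]

end H3.Wall
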