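import Cfsg.Agent.H3.Wall8

/-! # Regular unipotent elements of symplectic groups -/

namespace H3.Wall
open H4 H4.Form Module H3.RCF LinearMap Polynomial
variable {F : Type*} [Field F] {V W : Type*} [AddCommGroup V] [Module F V] [AddCommGroup W] [Module F W]

theorem card_u1 {R : Type*} [CommRing R] [Algebra F R] (h2 : (2 : F) ≠ 0) (σ : R →ₐ[F] R) (ev : R →ₐ[F] F)
    (hu : ∀ x, IsUnit x ↔ ev x ≠ 0) (hev : ∀ x, ev (σ x) = ev x) : Nat.card {c // σ c * c = 1} = 2 * Nat.card {a // σ a = -a} := by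
  have z : ∀ a, σ a = -a → ev a = 0 := fun a h => mul_left_cancel₀ h2 (by have := hev a; rw [h, map_neg] at this; linear_combination -this)
  have u2 : IsUnit (2 : R) := (hu _).2 (by rwa [map_ofNat])
  choose i hi using fun a : {a // σ a = -a} => ((hu (1 - a.1)).2 (by simp [z _ a.2])).exists_right_inv
  have s : ∀ a, (1 + a.1) * σ (i a) = 1 := fun a => by simpa [a.2] using congrArg σ (hi a)
  have e : ∀ a, ev (i a) = 1 := fun a => by simpa [z _ a.2] using congrArg ev (hi a)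
  rw [← show Nat.card {ε : F // ε * ε = 1} = 2 by
    simp only [mul_self_eq_one_iff]
    exact Set.ncard_pair fun h => h2 (by linear_combination h), ← Nat.card_prod]
  let Φ : {ε : F // ε * ε = 1} × {a // σ a = -a} → {c // σ c * c = 1} := fun x => ⟨x.1.1 • ((1 + x.2.1) * i x.2), by
    rw [map_smul, smul_mul_smul_comm, x.1.2, map_mul, map_add, map_one, x.2.2, one_smul]
    linear_combination ((1 + x.2.1) * σ (i x.2)) * hi x.2 + s x.2⟩
  refine (Nat.card_eq_of_bijective Φ ⟨?_, ?_⟩).symm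
  · rintro ⟨ε, a⟩ ⟨ε', b⟩ h
    have h := congrArg Subtype.val h
    obtain rfl : ε = ε' := Subtype.ext (by simpa [z _ a.2, z _ b.2, e, Φ] using congrArg ev h)
    have := smul_right_injective R (left_ne_zero_of_mul_eq_one ε.2) h
    exact Prod.ext rfl (Subtype.ext (u2.mul_left_cancel (by
      linear_combination (1 - a.1) * (1 - b.1) * this - (1 + a.1) * (1 - b.1) * hi a + (1 + b.1) * (1 - a.1) * hi b)))
  · rintro ⟨c, h⟩
    have k : ev c * ev c = 1 := by simpa [hev] using congrArg ev h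
    obtain ⟨ε, d, k0, rfl, h', k'⟩ : ∃ (ε : F) (d : R), ε * ε = 1 ∧ c = ε • d ∧ σ d * d = 1 ∧ ev d = 1 :=
      ⟨_, ev c • c, k, by rw [smul_smul, k, one_smul], by rw [map_smul, smul_mul_smul_comm, k, h, one_smul], by simp [k]⟩
    obtain ⟨j, hj⟩ := ((hu (d + 1)).2 (by simpa [k', one_add_one_eq_two])).exists_right_inv
    have hj' : (σ d + 1) * σ j = 1 := by simpa using congrArg σ hj
    let a : {a // σ a = -a} := ⟨(d - 1) * j, by
      rw [map_mul, map_sub, map_one]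
      linear_combination (1 - d) * j * hj' - (σ d - 1) * σ j * hj + 2 * j * σ j * h'⟩
    refine ⟨(⟨ε, k0⟩, a), Subtype.ext (congrArg (ε • ·) ?_)⟩
    linear_combination d * hi a + (d - 1) * i a * hj

theorem tr_pow (x : V ≃ₗ[F] W) {a : End F V} {b : End F W} (h : ∀ w, x (a w) = b (x w)) (n : ℕ) (w : V) : x (((a - 1) ^ n) w) = ((b - 1) ^ n) (x w) := by
  induction n with
  | zero => rfl
  | succ n k => simp [pow_succ', h, k]

variable [FiniteDimensional F V] {f : Form (altKind F) V} {g g' : V ≃ₗ[F] V} {n : ℕ}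

theorem reg_alg (hf : f.ND) (hg : g ∈ f.Isom) (t : Jor 1 g.toLinearMap {n + 1}) :
    ∃ (φ : AdjoinRoot ((X - C 1) ^ (n + 1) : F[X]) →ₐ[F] End F V) (σ : _ →ₐ[F] _) (ev : _ →ₐ[F] F) (e : V ≃ₗ[F] _), Function.Injective φ ∧ φ (.root _) = g ∧
      (∀ c, c * g.toLinearMap = g.toLinearMap * c → ∃ x, φ x = c) ∧ (∀ x u v, f.B (φ (σ x) u) v = f.B u (φ x v)) ∧ (∀ x, σ (σ x) = x) ∧
      (∀ x, IsUnit x ↔ ev x ≠ 0) ∧ (∀ x, ev (σ x) = ev x) ∧ (∀ x, IsNilpotent (x - algebraMap F _ (ev x))) ∧ (∀ x v, e (φ x v) = x * e v) ∧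
      (∀ x u v, f.B (((g.toLinearMap - 1 : End F V) ^ n) (φ x u)) v = ev x * f.B (((g.toLinearMap - 1 : End F V) ^ n) u) v) ∧
      f.B (((g.toLinearMap - 1 : End F V) ^ n) (e.symm 1)) (e.symm 1) ≠ 0 := by
  obtain ⟨φ, i, r, c, -, e, he⟩ := Typ.comm t
  obtain ⟨ev, z, u, -⟩ := exists_ev (1 : F) n.succ_pos
  obtain ⟨τ, a, t1, t2, t3, t4⟩ := exists_adj hf
  have E : ∀ {a b : End F V}, (∀ u v, f.B (a u) v = f.B (b u) v) → a = b := fun k => LinearMap.ext fun u => hf.ext (k u)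
  have g1 : τ g.symm = g := E fun u v => by rw [a, LinearEquiv.coe_coe, LinearEquiv.coe_coe, ← hg.1 u]; simp
  choose σ hσ using fun x => c (τ (φ x)) (by
    have : φ x * g.symm = g.symm * φ x := LinearMap.ext fun v => g.injective (by
      simpa [r] using LinearMap.congr_fun ((map_mul φ (.root _) x).symm.trans ((congrArg φ (mul_comm _ _)).trans (map_mul φ _ _))) (g.symm v))
    rw [← g1, ← t2, ← t2, this])
  let s : _ →ₐ[F] _ := ⟨⟨⟨⟨σ, i (by simp [hσ, t1])⟩, fun x y => i (by rw [hσ, map_mul, t2, ← hσ, ← hσ, ← map_mul, mul_comm])⟩, i (by simp [hσ]),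
    fun x y => i (by simp [hσ])⟩, fun c => i (by simp only [hσ, AlgHom.commutes, Algebra.algebraMap_eq_smul_one, map_smul, map_one]; exact t4 c)⟩
  have es : ∀ x, ev (s x) = ev x := fun x => by simpa [sub_eq_zero, -AdjoinRoot.algebraMap_eq] using ((z x).map s).map ev
  have r1 : ev (.root _) = 1 := by
    have : IsNilpotent (AdjoinRoot.root ((X - C 1) ^ (n + 1) : F[X]) - 1) := ⟨n + 1, by rw [← AdjoinRoot.mk_self, map_pow, map_sub, AdjoinRoot.mk_X, C_1, map_one]⟩
    simpa [sub_eq_zero] using this.map ev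
  have N : (g.toLinearMap - 1 : End F V) ^ n = φ (.mk _ ((X - C 1) ^ n)) := by simp [r]
  have k : ∀ x u v, f.B (((g.toLinearMap - 1 : End F V) ^ n) (φ x u)) v = ev x * f.B (((g.toLinearMap - 1 : End F V) ^ n) u) v := fun x u v => by
    obtain ⟨x, rfl⟩ := AdjoinRoot.mk_surjective x
    have : AdjoinRoot.mk ((X - C 1) ^ (n + 1) : F[X]) ((X - C 1) ^ n) * .mk _ x = x.eval 1 • AdjoinRoot.mk _ ((X - C 1) ^ n) := by
      rw [← map_mul, AdjoinRoot.smul_mk, AdjoinRoot.mk_eq_mk, smul_eq_C_mul, mul_comm (C _), ← mul_sub, pow_succ]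
      exact mul_dvd_mul_left _ X_sub_C_dvd_sub_C_eval
    have q : ev (.mk _ x) = x.eval 1 := by rw [← AdjoinRoot.aeval_eq, ← aeval_algHom_apply, r1]; simp
    rw [N, ← End.mul_apply, ← map_mul, this, q, map_smul, LinearMap.smul_apply, B_smul_left]; rfl
  refine ⟨φ, s, ev, e, i, r, c, fun x u v => hσ x ▸ a _ u v, fun x => i (by simp [s, hσ, t3]), u, es, z, he, k, fun h => ?_⟩
  refine AdjoinRoot.mk_ne_zero_of_natDegree_lt ((monic_X_sub_C (1 : F)).pow (n + 1)) (g := (X - C 1) ^ n) ((monic_X_sub_C _).pow n).ne_zero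
    (by simp only [natDegree_pow, natDegree_X_sub_C]; omega) ?_
  have := hf _ fun y => show f.B (((g.toLinearMap - 1 : End F V) ^ n) (e.symm 1)) y = 0 by
    rw [show y = φ (e y) (e.symm 1) from e.injective (by simp [he]), ← a, ← hσ, ← End.mul_apply, N, ← map_mul, mul_comm, map_mul, ← N, End.mul_apply, k, h, mul_zero]
  have := congrArg e this
  rwa [N, he, e.apply_symm_apply, mul_one, map_zero] at this

variable [Finite F] (h2 : (2 : F) ≠ 0) (hf : f.ND) (hg : g ∈ f.Isom) (t : Jor 1 g.toLinearMap {n + 1})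
include h2 hf hg t

theorem reg_cent {m : ℕ} (h : n + 1 = 2 * m) : Nat.card (Subgroup.centralizer {(⟨g, hg⟩ : f.Isom)}) = 2 * Nat.card F ^ m := by
  obtain ⟨φ, σ, ev, e, i, r, c, a, s, u, es, -, he, -⟩ := reg_alg hf hg t
  have d : finrank F V = 2 * m := t.sum.symm.trans h
  haveI := e.finiteDimensional
  let Φ : {c // σ c * c = 1} → Subgroup.centralizer {(⟨g, hg⟩ : f.Isom)} := fun x => ⟨⟨.ofBijective (φ x.1) ((End.isUnit_iff _).1
    ((IsUnit.of_mul_eq_one_right _ x.2).map φ)), fun u v => show f.B (φ x u) (φ x v) = _ by rw [← a, ← End.mul_apply, ← map_mul, x.2, map_one]; rfl, fun _ => by rw [alt_Q, alt_Q]⟩,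
    Subgroup.mem_centralizer_singleton_iff.2 (Subtype.ext (LinearEquiv.ext fun v => show φ x (g v) = g (φ x v) from
      LinearMap.congr_fun (show φ x * g = g * φ x by rw [← r, ← map_mul, ← map_mul, mul_comm]) v))⟩
  rw [← Nat.card_eq_of_bijective Φ ⟨fun x y h => Subtype.ext (i (congrArg (·.1.1.toLinearMap) h)), fun ⟨z, h⟩ => ?_⟩, card_u1 h2 σ ev u es]
  · let A := ker (σ.toLinearMap + .id)
    let S := ker (σ.toLinearMap - .id)
    have b : ∀ x, σ x = x → f.B (φ x (e.symm 1)) (e.symm 1) = 0 := fun x h => mul_left_cancel₀ h2 (by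
      have := f.symm (e.symm 1) (φ x (e.symm 1))
      rw [← a, h] at this
      simp only [altKind, RingHom.id_apply] at this
      linear_combination this)
    have l : ∀ (U : Submodule F _) (ε : F), (∀ x ∈ U, σ x = ε • x) → 2 * finrank F U ≤ 2 * m := fun U ε h => by
      have := hf.finrank_perp (U.map e.symm.toLinearMap)
      have := Submodule.finrank_mono (show U.map e.symm.toLinearMap ≤ f.perp (U.map e.symm.toLinearMap) by
        rintro _ ⟨x, p, rfl⟩ _ ⟨y, q, rfl⟩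
        have v : ∀ x, e.symm.toLinearMap x = φ x (e.symm 1) := fun x => e.injective (by simp [he])
        rw [v, v, ← a, ← End.mul_apply, ← map_mul]
        exact b _ (by rw [map_mul, s, h y q, h x p, mul_smul_comm, smul_mul_assoc]))
      rw [LinearEquiv.finrank_map_eq] at *
      omega
    have l1 := l A (-1) fun x h => by simpa [A, add_eq_zero_iff_eq_neg] using h
    have l2 := l S 1 fun x h => by simpa [S, sub_eq_zero] using h
    have l3 := Submodule.finrank_add_le_finrank_add_finrank A S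
    rw [show A ⊔ S = ⊤ from top_le_iff.1 fun x _ => Submodule.mem_sup.2 ⟨(2⁻¹ : F) • (x - σ x), by simp [A, s, ← smul_add], (2⁻¹ : F) • (x + σ x),
      by simp [S, s, add_comm], by rw [← smul_add, sub_add_add_cancel, ← two_smul F, smul_smul, inv_mul_cancel₀ h2, one_smul]⟩, finrank_top, ← e.finrank_eq] at l3
    rw [← show finrank F A = m by omega, ← Module.natCard_eq_pow_finrank]
    exact congrArg _ (Nat.card_congr (Equiv.subtypeEquivRight fun x => by simp [A, add_eq_zero_iff_eq_neg]))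
  · obtain ⟨x, e⟩ := c z.1.toLinearMap (congrArg (·.1.toLinearMap) (Subgroup.mem_centralizer_singleton_iff.1 h))
    exact ⟨⟨x, i (LinearMap.ext fun u => hf.ext fun v => by rw [map_mul, End.mul_apply, a, e, map_one]; exact z.2.1 u v)⟩,
      Subtype.ext (Subtype.ext (LinearEquiv.toLinearMap_injective e))⟩

theorem reg_conj (hg' : g' ∈ f.Isom) (t' : Jor 1 g'.toLinearMap {n + 1}) {v v' : V} (h0 : f.B (((g.toLinearMap - 1 : End F V) ^ n) v) v ≠ 0)
    (h0' : f.B (((g'.toLinearMap - 1 : End F V) ^ n) v') v' ≠ 0) : IsConj (⟨g, hg⟩ : f.Isom) ⟨g', hg'⟩ ↔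
    chi (f.B (((g.toLinearMap - 1 : End F V) ^ n) v) v) = chi (f.B (((g'.toLinearMap - 1 : End F V) ^ n) v') v') := by
  obtain ⟨φ, σ, ev, e, i, r, c, a, s, u, es, z, he, k, k0⟩ := reg_alg hf hg t
  set N : End F V := (g.toLinearMap - 1) ^ n
  have cy : ∀ w, φ (e w) (e.symm 1) = w := fun w => e.injective (by simp [he])
  have cm : ∀ x, φ x * N = N * φ x := fun x => by
    have : N = φ ((.root _ - 1) ^ n) := by simp [r, N]
    rw [this, ← map_mul, ← map_mul, mul_comm]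
  have l : ∀ w, f.B (N w) w = ev (e w) ^ 2 * f.B (N (e.symm 1)) (e.symm 1) := fun w => by
    conv_lhs => rw [← cy w, k, ← a, ← End.mul_apply, cm, End.mul_apply, k, es, ← mul_assoc, ← sq]
  have l' : ∀ w, f.B (N w) w ≠ 0 → chi (f.B (N w) w) = chi (f.B (N (e.symm 1)) (e.symm 1)) := fun w h => by
    rw [l] at h ⊢; exact chi_sq_mul (fun z => h (by simp [z])) _
  have tr : ∀ x : V ≃ₗ[F] V, (∀ w, x (g w) = g' (x w)) → ∀ w, x (N w) = ((g'.toLinearMap - 1 : End F V) ^ n) (x w) := fun x h => tr_pow x h n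
  refine ⟨fun h => ?_, fun h => ?_⟩
  · obtain ⟨x, h⟩ := isConj_iff.1 h
    obtain ⟨w, rfl⟩ := x.1.surjective v'
    rw [← tr x.1 (LinearEquiv.congr_fun (congrArg Subtype.val (mul_inv_eq_iff_eq_mul.1 h))), x.2.1] at h0' ⊢
    rw [l' v h0, l' w h0']
  obtain ⟨x, hx⟩ := Typ.sim t t'
  simp only [LinearEquiv.coe_coe] at hx
  obtain ⟨w, rfl⟩ := x.surjective v'
  obtain ⟨S, hs⟩ := exists_rep hf (f.comap x.toLinearMap).B
  simp only [comap_B, LinearEquiv.coe_coe] at hs
  obtain ⟨y, rfl⟩ := c S (LinearMap.ext fun u => hf.ext fun v => by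
    obtain ⟨v, rfl⟩ := g.surjective v
    simp [hs, hg.1, hx, hg'.1])
  have s1 : σ y = y := i (LinearMap.ext fun u => hf.ext fun v => by rw [a, f.symm, hs, hs, ← f.symm])
  rw [← tr x hx, ← hs, ← End.mul_apply, cm, End.mul_apply, k] at h h0'
  rw [chi_mul (left_ne_zero_of_mul h0') (right_ne_zero_of_mul h0'), l' v h0, l' w (right_ne_zero_of_mul h0'), right_eq_mul, chi_eq_one] at h
  obtain ⟨b, hb⟩ := h
  have b0 : b ≠ 0 := fun z => left_ne_zero_of_mul h0' (by simp [hb, z])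
  haveI := e.finiteDimensional
  haveI := Module.finite_of_finite F (M := AdjoinRoot ((X - C 1) ^ (n + 1) : F[X]))
  obtain ⟨d, hd⟩ := nil_solve (B := AlgHom.equalizer σ (.id F _)) (algebraMap F _ (2 * b * (2 * b))⁻¹) (w := ⟨y - algebraMap F _ (ev y), by simp [s1, -AdjoinRoot.algebraMap_eq]⟩)
    ((z y).imp fun _ h => Subtype.ext h)
  let j := algebraMap F _ b + (2 * b)⁻¹ • d.1
  have j1 : σ j = j := by simp [j, show σ d = d from d.2, -AdjoinRoot.algebraMap_eq]
  have j2 : j * j = y := by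
    have : d.1 + algebraMap F _ (2 * b * (2 * b))⁻¹ * d.1 ^ 2 = y - algebraMap F _ (ev y) := congrArg Subtype.val hd
    rw [eq_sub_iff_add_eq, hb] at this
    rw [← this]
    simp only [j, Algebra.algebraMap_eq_smul_one, mul_add, add_mul, smul_mul_assoc, mul_smul_comm, mul_one, one_mul, sq]
    match_scalars <;> field_simp <;> ring
  let J := LinearEquiv.ofBijective (φ j) ((End.isUnit_iff _).1 (((u j).2 fun z => left_ne_zero_of_mul h0' (by rw [← j2, map_mul, z, mul_zero])).map φ))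
  refine isConj_of (g := ⟨g, hg⟩) (h := ⟨g', hg'⟩) ⟨J.symm.trans x, ⟨fun u v => ?_, fun _ => by rw [alt_Q, alt_Q]⟩, fun v => ?_⟩
  · obtain ⟨u, rfl⟩ := J.surjective u
    obtain ⟨v, rfl⟩ := J.surjective v
    simp [← hs, ← j2, J, ← a, j1]
  · obtain ⟨v, rfl⟩ := J.surjective v
    rw [show g (J v) = J (g v) from LinearMap.congr_fun (show g.toLinearMap * φ j = φ j * g by rw [← r, ← map_mul, ← map_mul, mul_comm]) v]; simp [hx]

omit hg t in
theorem reg_cls {G : Type*} [Group G] (e : G ≃* f.Isom) (Q : G → Prop) {k : ℕ} (d : finrank F V = 2 * k + 1 + 1)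
    (h : ∀ g, Q g ↔ Jor 1 (e g).1.toLinearMap {2 * k + 1 + 1}) : Nat.card {C // ∃ g, ConjClasses.mk g = C ∧ Q g} = 2 := by
  refine (card_cls Q (fun g (y : ℤˣ) => ∃ v, f.B ((((e g).1.toLinearMap - 1 : End F V) ^ (2 * k + 1)) v) v ≠ 0 ∧
    chi (f.B ((((e g).1.toLinearMap - 1 : End F V) ^ (2 * k + 1)) v) v) = y) (fun y => ?_) (fun g q => ?_) ?_).trans (by simp)
  · obtain ⟨a, n, g, x, t⟩ := ex_sp (F := F) k
    obtain ⟨-, -, -, i, -, -, -, -, -, -, -, -, -, -, z⟩ := reg_alg n x t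
    obtain ⟨c, c0, hc⟩ := exists_chi_eq h2 (y * chi (a.B (((g.toLinearMap - 1 : End F _) ^ (2 * k + 1)) (i.symm 1)) (i.symm 1)))
    let a' := altForm (c • a.B) fun v => show c • a.B v v = 0 by rw [alt_B_self, smul_zero]
    obtain ⟨j, w⟩ := alt_exists_isIso _ _ _ a' f (fun v h => n v fun u => (smul_eq_zero_iff_right c0).1 (h u)) hf ((Module.finrank_fin_fun F).trans d.symm) rfl
    have m := w.mem_Isom_iff.2 ((alt_mem_Isom a').2 fun u v => congrArg (c • ·) (x.1 u v))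
    refine ⟨e.symm ⟨_, m⟩, (h _).2 ?_, j (i.symm 1), ?_⟩ <;> rw [e.apply_symm_apply]
    · exact Sim.typ ⟨j.symm, fun v => by simp⟩ t
    rw [← tr_pow j (a := g) (fun w => by simp), w.B]
    exact ⟨mul_ne_zero c0 z, (chi_mul c0 z).trans (by rw [hc, mul_assoc, Int.units_mul_self, mul_one])⟩
  · obtain ⟨-, -, -, i, -, -, -, -, -, -, -, -, -, -, z⟩ := reg_alg hf (e g).2 ((h g).1 q)
    exact ⟨_, _, z, rfl⟩
  · rintro g g' _ _ q q' ⟨v, a, rfl⟩ ⟨v', a', rfl⟩
    rw [← reg_conj h2 hf (e g).2 ((h g).1 q) (e g').2 ((h g').1 q') a a']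
    exact ⟨e.toMonoidHom.map_isConj, fun h => by simpa using e.symm.toMonoidHom.map_isConj h⟩

end H3.Wall
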